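import Cfsg.Agent.MinIndexSL.Transvection

/-!
Orbits of the transvection groups with a fixed centre in a small permutation representation of `SL_n`:
either they are trivial or regular, or their point stabilisers are all of codimension one.
-/

set_option autoImplicit false
set_option linter.style.haveILetI false

namespace CfsgLib.MinIndexSL

open Matrix
open scoped Matrix

variable {n : ℕ} {F : Type*} [Field F] [Fintype F] [DecidableEq F]
variable {Ω : Type*} [Fintype Ω] [MulAction (SpecialLinearGroup (Fin n) F) Ω]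

/-- All transvections with centre `v` fix `x`. -/
def Fixes (v : Fin n → F) (x : Ω) : Prop := ∀ φ : Fin n → F, φ ⬝ᵥ v = 0 → tv v φ • x = x

/-- Only the trivial transvection with centre `v` fixes `x`. -/
def Free (v : Fin n → F) (x : Ω) : Prop := ∀ φ : Fin n → F, φ ⬝ᵥ v = 0 → tv v φ • x = x → φ = 0

/-- The transvections with centre `v` fixing `x` are those with axis through a fixed plane on `v`. -/
def Plane (v : Fin n → F) (x : Ω) : Prop :=
  ∃ L : Submodule F (Fin n → F), Module.finrank F L = 2 ∧ v ∈ L ∧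
    ∀ φ : Fin n → F, (φ ⬝ᵥ v = 0 ∧ tv v φ • x = x) ↔ ∀ u ∈ L, φ ⬝ᵥ u = 0

omit [Fintype Ω] [Fintype F] in
theorem fixes_smul {v : Fin n → F} {x : Ω} (h : Fixes v x) (g : SpecialLinearGroup (Fin n) F) :
    Fixes (g • v) (g • x) := by
  intro φ hφ
  have h1 : pull g⁻¹ φ ⬝ᵥ v = 0 := by rw [pull_dot, inv_inv, hφ]
  have h2 := conj_tv h1 g
  rw [pull_pull, mul_inv_cancel, pull_one] at h2
  rw [← h2, mul_smul, mul_smul, inv_smul_smul, h _ h1]

omit [Fintype Ω] [Fintype F] in
theorem free_smul {v : Fin n → F} {x : Ω} (h : Free v x) (g : SpecialLinearGroup (Fin n) F) :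
    Free (g • v) (g • x) := by
  intro φ hφ hfix
  have h1 : pull g⁻¹ φ ⬝ᵥ v = 0 := by rw [pull_dot, inv_inv, hφ]
  have h2 := conj_tv h1 g
  rw [pull_pull, mul_inv_cancel, pull_one] at h2
  rw [← h2, mul_smul, mul_smul, inv_smul_smul] at hfix
  have h3 := h _ h1 (MulAction.injective g hfix)
  have h4 := congrArg (pull g) h3
  rwa [pull_pull, mul_inv_cancel, pull_one, pull, zero_vecMul] at h4

omit [Fintype F] in
/-- Some element fixing `v` moves one vector outside the line of `v` to another. -/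
theorem exists_stab_smul (hn : 3 ≤ n) {v w w' : Fin n → F} (hw : w ∉ Submodule.span F {v})
    (hw' : w' ∉ Submodule.span F {v}) :
    ∃ g : SpecialLinearGroup (Fin n) F, g • v = v ∧ g • w = w' := by
  have key : ∀ a b : Fin n → F, a ∉ Submodule.span F {v} → b ∉ Submodule.span F {v, a} →
      ∃ g : SpecialLinearGroup (Fin n) F, g • v = v ∧ g • a = b := by
    intro a b ha hb
    have ha2 : a ∉ Submodule.span F {v, b - a} := by
      intro h
      obtain ⟨c, d, hcd⟩ := Submodule.mem_span_pair.mp h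
      by_cases hd : d = 0
      · rw [hd, zero_smul, add_zero] at hcd
        exact ha (Submodule.mem_span_singleton.mpr ⟨c, hcd⟩)
      · refine hb (Submodule.mem_span_pair.mpr ⟨-(c / d), (1 + d) / d, ?_⟩)
        have hba : d • b = (1 + d) • a - c • v := by
          rw [smul_sub] at hcd
          linear_combination (norm := module) hcd
        calc (-(c / d)) • v + ((1 + d) / d) • a = d⁻¹ • ((1 + d) • a - c • v) := by
              simp only [div_eq_inv_mul]; module
          _ = b := by rw [← hba, inv_smul_smul₀ hd]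
    obtain ⟨ψ, hψa, hψ⟩ := exists_dual ha2
    have hd : ψ ⬝ᵥ (b - a) = 0 := hψ _ (Submodule.subset_span (by simp))
    refine ⟨tv (b - a) ψ, ?_, ?_⟩
    · rw [tv_smul hd, hψ v (Submodule.subset_span (by simp)), zero_smul, add_zero]
    · rw [tv_smul hd, hψa, one_smul, add_sub_cancel]
  by_cases h : w' ∈ Submodule.span F {v, w}
  · obtain ⟨z, hz⟩ : ∃ z, z ∉ Submodule.span F {v, w} := by
      by_contra hc
      push Not at hc
      have htop : Submodule.span F {v, w} = ⊤ := eq_top_iff.mpr fun u _ => hc u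
      have h1 := finrank_range_le_card (R := F) (![v, w])
      rw [Matrix.range_cons, Matrix.range_cons, Matrix.range_empty, Set.union_empty] at h1
      simp only [Set.singleton_union, Fintype.card_fin] at h1
      rw [Set.finrank, htop, finrank_top, Module.finrank_fin_fun] at h1
      omega
    have hsub : Submodule.span F {v, w'} ≤ Submodule.span F {v, w} :=
      Submodule.span_le.mpr (Set.insert_subset (Submodule.subset_span (by simp)) (Set.singleton_subset_iff.mpr h))
    have hz' : z ∉ Submodule.span F {v, w'} := fun h' => hz (hsub h')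
    obtain ⟨g, hgv, hgw⟩ := key w z hw hz
    obtain ⟨g', hgv', hgw'⟩ := key w' z hw' hz'
    refine ⟨g'⁻¹ * g, ?_, ?_⟩
    · rw [mul_smul, hgv, inv_smul_eq_iff, hgv']
    · rw [mul_smul, hgw, inv_smul_eq_iff, hgw']
  · exact key w w' hw h

omit [DecidableEq F] in
theorem card_perp {v : Fin n → F} (hv : v ≠ 0) :
    Nat.card {φ : Fin n → F // φ ⬝ᵥ v = 0} * Fintype.card F = Fintype.card F ^ n := by
  obtain ⟨ζ, hζ, -⟩ := exists_dual (p := (⊥ : Submodule F (Fin n → F))) (u := v) (by simpa using hv)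
  have hV : Nat.card (Fin n → F) = Fintype.card F ^ n := by
    rw [Nat.card_eq_fintype_card, Fintype.card_fun, Fintype.card_fin]
  rw [← hV, ← Nat.card_eq_fintype_card, ← Nat.card_prod]
  refine Nat.card_congr
    { toFun := fun z => z.1.1 + z.2 • ζ
      invFun := fun φ => (⟨φ - (φ ⬝ᵥ v) • ζ, by rw [sub_dotProduct, smul_dotProduct, hζ, smul_eq_mul, mul_one, sub_self]⟩, φ ⬝ᵥ v)
      left_inv := fun z => ?_
      right_inv := fun φ => by simp }
  have h1 : (z.1.1 + z.2 • ζ) ⬝ᵥ v = z.2 := by
    rw [add_dotProduct, smul_dotProduct, hζ, z.1.2, smul_eq_mul, mul_one, zero_add]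
  refine Prod.ext (Subtype.ext ?_) h1
  simp [z.1.2, hζ]

/-- The orbit of `x` under the transvections with centre `v`. -/
noncomputable def orb (v : Fin n → F) (x : Ω) : Finset Ω := by
  classical exact Finset.univ.filter fun y => ∃ φ : Fin n → F, φ ⬝ᵥ v = 0 ∧ tv v φ • x = y

theorem mem_orb {v : Fin n → F} {x y : Ω} :
    y ∈ orb v x ↔ ∃ φ : Fin n → F, φ ⬝ᵥ v = 0 ∧ tv v φ • x = y := by
  classical
  simp [orb]

theorem self_mem_orb (v : Fin n → F) (x : Ω) : x ∈ orb v x :=
  mem_orb.mpr ⟨0, zero_dotProduct v, by rw [tv_zero, one_smul]⟩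

theorem orb_eq_of_mem {v : Fin n → F} {x y : Ω} (h : y ∈ orb v x) : orb v y = orb v x := by
  obtain ⟨φ, hφ, rfl⟩ := mem_orb.mp h
  ext z
  simp only [mem_orb]
  constructor
  · rintro ⟨ψ, hψ, rfl⟩
    exact ⟨ψ + φ, by rw [add_dotProduct, hψ, hφ, add_zero], by rw [← tv_add hψ hφ, mul_smul]⟩
  · rintro ⟨ψ, hψ, rfl⟩
    refine ⟨ψ - φ, by rw [sub_dotProduct, hψ, hφ, sub_zero], ?_⟩
    rw [← mul_smul, tv_add (by rw [sub_dotProduct, hψ, hφ, sub_zero]) hφ, sub_add_cancel]

/-- The classes of the orbit relation. -/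
noncomputable def classes (v : Fin n → F) : Finset (Finset Ω) := by
  classical exact Finset.univ.image (orb v)

theorem sum_classes (v : Fin n → F) : ∑ O ∈ classes (Ω := Ω) v, O.card = Fintype.card Ω := by
  classical
  rw [← Finset.card_univ, Finset.card_eq_sum_card_fiberwise (f := orb v) (t := classes (Ω := Ω) v)
    (fun x _ => by simp [classes])]
  refine Finset.sum_congr rfl fun O hO => ?_
  obtain ⟨x, -, rfl⟩ := Finset.mem_image.mp hO
  congr 1
  ext y
  simp only [Finset.mem_filter, Finset.mem_univ, true_and]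
  exact ⟨orb_eq_of_mem, fun h => h ▸ self_mem_orb v y⟩

section

variable (p : ℕ) [Fact p.Prime] [Algebra (ZMod p) F]

/-- The functionals of transvections with centre `v` that fix `x`. -/
def stabFun (v : Fin n → F) (x : Ω) : Submodule (ZMod p) (Fin n → F) :=
  AddSubgroup.toZModSubmodule p
    { carrier := {φ | φ ⬝ᵥ v = 0 ∧ tv v φ • x = x}
      zero_mem' := ⟨zero_dotProduct v, by rw [tv_zero, one_smul]⟩
      add_mem' := fun {a b} ha hb => ⟨by rw [add_dotProduct, ha.1, hb.1, add_zero], by
        rw [← tv_add ha.1 hb.1, mul_smul, hb.2, ha.2]⟩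
      neg_mem' := fun {a} ha => ⟨by rw [neg_dotProduct, ha.1, neg_zero], by
        rw [← tv_inv ha.1, inv_smul_eq_iff, ha.2]⟩ }

omit [Fintype F] [Fintype Ω] in
theorem mem_stabFun {v φ : Fin n → F} {x : Ω} :
    φ ∈ stabFun p v x ↔ φ ⬝ᵥ v = 0 ∧ tv v φ • x = x := Iff.rfl

/-- The dual space. -/
noncomputable def WS (v : Fin n → F) (x : Ω) : Submodule (ZMod p) (Fin n → F) := ann p (stabFun p v x)

omit [Fintype F] [Fintype Ω] in
theorem mem_WS_of_line {v : Fin n → F} (x : Ω) {w : Fin n → F} (hw : w ∈ Submodule.span F {v}) :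
    w ∈ WS p v x := by
  obtain ⟨c, rfl⟩ := Submodule.mem_span_singleton.mp hw
  refine (mem_ann p).mpr fun φ hφ => ?_
  rw [dotProduct_smul, ((mem_stabFun p).mp hφ).1, smul_zero, map_zero]

theorem stabFun_orb {v : Fin n → F} {x y : Ω} (h : y ∈ orb v x) : stabFun p v y = stabFun p v x := by
  obtain ⟨χ, hχ, rfl⟩ := mem_orb.mp h
  ext φ
  simp only [mem_stabFun]
  refine and_congr_right fun hφ => ?_
  rw [← mul_smul, tv_add hφ hχ, add_comm, ← tv_add hχ hφ, mul_smul]
  exact ⟨fun h => MulAction.injective _ h, fun h => by rw [h]⟩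

theorem WS_orb {v : Fin n → F} {x y : Ω} (h : y ∈ orb v x) : WS p v y = WS p v x := by
  rw [WS, stabFun_orb p h]; rfl

omit [Fintype Ω] [Fintype F] in
theorem smul_mem_WS {v w : Fin n → F} {x : Ω} {g : SpecialLinearGroup (Fin n) F} (hg : g • v = v)
    (hw : w ∈ WS p v x) : g • w ∈ WS p v (g • x) := by
  refine (mem_ann p).mpr fun φ hφ => ?_
  obtain ⟨h1, h2⟩ := (mem_stabFun p).mp hφ
  have h3 : pull g⁻¹ φ ⬝ᵥ v = 0 := by rw [pull_dot, inv_inv, hg, h1]
  have h4 := conj_tv h3 g
  rw [pull_pull, mul_inv_cancel, pull_one, hg] at h4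
  rw [← h4, mul_smul, mul_smul, inv_smul_smul] at h2
  have h5 := (mem_ann p).mp hw _ ((mem_stabFun p).mpr ⟨h3, MulAction.injective g h2⟩)
  rwa [pull_dot, inv_inv] at h5

theorem card_orb_mul {v : Fin n → F} (x : Ω) :
    (orb v x).card * Nat.card (stabFun p v x) = Nat.card {φ : Fin n → F // φ ⬝ᵥ v = 0} := by
  classical
  rw [Nat.card_eq_fintype_card, Nat.card_eq_fintype_card, Fintype.card_subtype, Fintype.card_subtype]
  symm
  have h := Finset.card_eq_sum_card_fiberwise (f := fun φ => tv v φ • x)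
    (s := Finset.univ.filter fun φ : Fin n → F => φ ⬝ᵥ v = 0) (t := orb v x)
    (fun φ hφ => mem_orb.mpr ⟨φ, (Finset.mem_filter.mp hφ).2, rfl⟩)
  refine h.trans ?_
  rw [Finset.sum_congr rfl (g := fun _ => (Finset.univ.filter fun φ => φ ∈ stabFun p v x).card),
    Finset.sum_const, smul_eq_mul]
  intro y hy
  obtain ⟨χ, hχ, rfl⟩ := mem_orb.mp hy
  refine Finset.card_bij' (fun φ _ => φ - χ) (fun φ _ => φ + χ) ?_ ?_ (by simp) (by simp)
  · intro φ hφ
    simp only [Finset.mem_filter, Finset.mem_univ, true_and] at hφ ⊢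
    obtain ⟨h1, h2⟩ := hφ
    have h3 : (φ - χ) ⬝ᵥ v = 0 := by rw [sub_dotProduct, h1, hχ, sub_zero]
    refine (mem_stabFun p).mpr ⟨h3, MulAction.injective (tv v χ) ?_⟩
    show tv v χ • tv v (φ - χ) • x = tv v χ • x
    rw [← mul_smul, tv_add hχ h3, add_sub_cancel, h2]
  · intro φ hφ
    simp only [Finset.mem_filter, Finset.mem_univ, true_and] at hφ ⊢
    obtain ⟨h1, h2⟩ := (mem_stabFun p).mp hφ
    refine ⟨by rw [add_dotProduct, h1, hχ, add_zero], ?_⟩
    rw [add_comm, ← tv_add hχ h1, mul_smul, h2]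

theorem card_WS {v : Fin n → F} (hv : v ≠ 0) (x : Ω) :
    Nat.card (WS p v x) = Fintype.card F * (orb v x).card := by
  have h1 := card_ann_mul p (stabFun p v x)
  rw [← card_perp hv, ← card_orb_mul p x] at h1
  refine Nat.eq_of_mul_eq_mul_right (Nat.card_pos : 0 < Nat.card (stabFun p v x)) ?_
  rw [WS, h1]
  ring

theorem fixes_of_card_orb {v : Fin n → F} {x : Ω} (h : (orb v x).card = 1) : Fixes v x := by
  intro φ hφ
  exact Finset.card_le_one.mp h.le _ (mem_orb.mpr ⟨φ, hφ, rfl⟩) _ (self_mem_orb v x)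

theorem fixes_of_WS_le {v : Fin n → F} (hv : v ≠ 0) {x : Ω}
    (h : ∀ w ∈ WS p v x, w ∈ Submodule.span F {v}) : Fixes v x := by
  classical
  refine fixes_of_card_orb ?_
  have h1 : Nat.card (WS p v x) ≤ Nat.card F :=
    Nat.card_le_card_of_surjective (fun c : F => (⟨c • v, mem_WS_of_line p x (Submodule.mem_span_singleton.mpr ⟨c, rfl⟩)⟩ : WS p v x))
      fun w => by
        obtain ⟨c, hc⟩ := Submodule.mem_span_singleton.mp (h w w.2)
        exact ⟨c, Subtype.ext hc⟩
  rw [card_WS p hv, Nat.card_eq_fintype_card] at h1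
  have h2 : 0 < (orb v x).card := Finset.card_pos.mpr ⟨x, self_mem_orb v x⟩
  have h3 : 0 < Fintype.card F := Fintype.card_pos
  nlinarith

omit [Fintype Ω] in
theorem free_of_WS_top {v : Fin n → F} {x : Ω} (h : ∀ w, w ∈ WS p v x) : Free v x := by
  intro φ h1 h2
  by_contra hne
  obtain ⟨i, hi⟩ := Function.ne_iff.mp hne
  obtain ⟨a, ha⟩ := Algebra.trace_surjective (ZMod p) F 1
  have h5 := (mem_ann p).mp (h (Pi.single i (a / φ i))) φ ((mem_stabFun p).mpr ⟨h1, h2⟩)
  rw [dotProduct_single, mul_div_cancel₀ _ hi, ha] at h5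
  exact one_ne_zero h5

variable [MulAction.IsPretransitive (SpecialLinearGroup (Fin n) F) Ω] [Nontrivial Ω]

/-- Each vector off the line lies in the dual space of exactly one orbit. -/
theorem exists_unique_class (hn : 3 ≤ n) (hlt : Fintype.card Ω * (Fintype.card F - 1) < Fintype.card F ^ n - 1)
    {v : Fin n → F} (hv : v ≠ 0) :
    Fintype.card Ω + 1 = (classes (Ω := Ω) v).card + Fintype.card F ^ (n - 1) ∧
    (∀ w ∉ Submodule.span F {v}, ∃ x : Ω, w ∈ WS p v x) ∧
    ∀ (w : Fin n → F) (x y : Ω), w ∉ Submodule.span F {v} → w ∈ WS p v x → w ∈ WS p v y → orb v x = orb v y := by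
  classical
  set q := Fintype.card F with hq
  set line := Submodule.span F {v}
  set out := Finset.univ.filter fun w : Fin n → F => w ∉ line
  let k : (Fin n → F) → ℕ := fun w => ((classes (Ω := Ω) v).filter fun O => ∃ x ∈ O, w ∈ WS p v x).card
  have hconst : ∀ w w' : Fin n → F, w ∉ line → w' ∉ line → k w ≤ k w' := by
    intro w w' hw hw'
    obtain ⟨g, hgv, hgw⟩ := exists_stab_smul hn hw hw'
    refine Finset.card_le_card_of_injOn (fun O => O.image fun x => g • x) ?_ ?_
    · intro O hO
      obtain ⟨hO1, x, hx, hwx⟩ := Finset.mem_filter.mp hO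
      obtain ⟨z, -, rfl⟩ := Finset.mem_image.mp hO1
      refine Finset.mem_filter.mpr ⟨Finset.mem_image.mpr ⟨g • z, Finset.mem_univ _, ?_⟩,
        g • x, Finset.mem_image_of_mem _ hx, hgw ▸ smul_mem_WS p hgv hwx⟩
      ext y
      simp only [Finset.mem_image, mem_orb]
      constructor
      · rintro ⟨φ, hφ, rfl⟩
        have h1 : pull g⁻¹ φ ⬝ᵥ v = 0 := by rw [pull_dot, inv_inv, hgv, hφ]
        have h2 := conj_tv h1 g
        rw [pull_pull, mul_inv_cancel, pull_one, hgv] at h2
        exact ⟨tv v (pull g⁻¹ φ) • z, ⟨_, h1, rfl⟩, by rw [← h2, mul_smul, mul_smul, inv_smul_smul]⟩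
      · rintro ⟨_, ⟨φ, hφ, rfl⟩, rfl⟩
        have h2 := conj_tv hφ g
        rw [hgv] at h2
        exact ⟨pull g φ, by rw [← hgv, pull_smul_dot, hφ], by rw [← h2, mul_smul, mul_smul, inv_smul_smul]⟩
    · intro O _ O' _ h
      exact Finset.image_injective (MulAction.injective g) h
  obtain ⟨w₀, hw₀⟩ : ∃ w₀, w₀ ∉ line := by
    by_contra hc
    push Not at hc
    have h1 : Module.finrank F line = 1 := finrank_span_singleton hv
    rw [show line = ⊤ from eq_top_iff.mpr fun u _ => hc u, finrank_top, Module.finrank_fin_fun] at h1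
    omega
  have hk : ∀ w ∈ out, k w = k w₀ := fun w hw =>
    le_antisymm (hconst _ _ (Finset.mem_filter.mp hw).2 hw₀) (hconst _ _ hw₀ (Finset.mem_filter.mp hw).2)
  have hline : Nat.card line = q := by
    rw [Module.natCard_eq_pow_finrank (K := F), finrank_span_singleton hv, pow_one, Nat.card_eq_fintype_card]
  have hout : out.card + q = q ^ n := by
    have h1 := Finset.card_filter_add_card_filter_not (s := (Finset.univ : Finset (Fin n → F))) (fun w => w ∉ line)
    simp only [not_not] at h1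
    rw [Finset.card_univ, Fintype.card_fun, Fintype.card_fin] at h1
    rw [← h1, ← hline, Nat.card_eq_fintype_card, Fintype.card_subtype]
  have hsum : ∀ O ∈ classes (Ω := Ω) v,
      (out.filter fun w => ∃ x ∈ O, w ∈ WS p v x).card + q = q * O.card := by
    intro O hO
    obtain ⟨z, -, rfl⟩ := Finset.mem_image.mp hO
    rw [← card_WS p hv z, ← hline, Nat.card_eq_fintype_card, Nat.card_eq_fintype_card, Fintype.card_subtype,
      Fintype.card_subtype, ← Finset.card_union_of_disjoint]
    · congr 1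
      ext w
      simp only [Finset.mem_union, Finset.mem_filter, Finset.mem_univ, true_and, out]
      constructor
      · rintro (⟨-, x, hx, hw⟩ | hw)
        · rwa [WS_orb p hx] at hw
        · exact mem_WS_of_line p z hw
      · intro hw
        by_cases h : w ∈ line
        · exact Or.inr h
        · exact Or.inl ⟨h, z, self_mem_orb v z, hw⟩
    · rw [Finset.disjoint_left]
      intro w hw hw'
      simp only [Finset.mem_filter, Finset.mem_univ, true_and, out] at hw hw'
      exact hw.1 hw'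
  have htot : out.card * k w₀ + (classes (Ω := Ω) v).card * q = q * Fintype.card Ω := by
    rw [← sum_classes v, Finset.mul_sum, ← Finset.sum_congr rfl hsum, Finset.sum_add_distrib,
      Finset.sum_const, smul_eq_mul]
    congr 1
    rw [← smul_eq_mul, ← Finset.sum_const, ← Finset.sum_congr rfl hk]
    simp only [k, Finset.card_filter]
    exact Finset.sum_comm
  have hqn : q ^ n = q * q ^ (n - 1) := by rw [← pow_succ', Nat.sub_add_cancel (by omega : 1 ≤ n)]
  have hq2 : 2 ≤ q := Fintype.one_lt_card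
  have hqm : 0 < q ^ (n - 1) := pow_pos (by omega) _
  set N := (classes (Ω := Ω) v).card
  have hN : 0 < N := Finset.card_pos.mpr
    ⟨orb v (Classical.arbitrary Ω), Finset.mem_image_of_mem _ (Finset.mem_univ _)⟩
  have hm : Fintype.card Ω + k w₀ = N + q ^ (n - 1) * k w₀ := by
    refine Nat.eq_of_mul_eq_mul_left (by omega : 0 < q) ?_
    rw [mul_add, ← htot]
    calc out.card * k w₀ + N * q + q * k w₀ = (out.card + q) * k w₀ + N * q := by ring
      _ = q * (N + q ^ (n - 1) * k w₀) := by rw [hout, hqn]; ring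
  have hk1 : k w₀ = 1 := by
    rcases Nat.lt_trichotomy (k w₀) 1 with hk0 | hk1 | hk2
    · exfalso
      have hk0' : k w₀ = 0 := by omega
      rw [hk0', mul_zero, add_zero, add_zero] at hm
      have hone : ∀ x : Ω, (orb v x).card = 1 := by
        intro x
        have h1 : ∑ O ∈ classes (Ω := Ω) v, (1 : ℕ) = ∑ O ∈ classes (Ω := Ω) v, O.card := by
          rw [sum_classes, Finset.sum_const, smul_eq_mul, mul_one, hm]
        refine ((Finset.sum_eq_sum_iff_of_le ?_).mp h1 (orb v x) (Finset.mem_image_of_mem _ (Finset.mem_univ x))).symm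
        intro O hO
        obtain ⟨z, -, rfl⟩ := Finset.mem_image.mp hO
        exact Finset.card_pos.mpr ⟨z, self_mem_orb v z⟩
      obtain ⟨x, y, hxy⟩ := exists_pair_ne Ω
      have htop : MulAction.stabilizer (SpecialLinearGroup (Fin n) F) x = ⊤ := by
        refine eq_top_of_tv (by omega) _ fun v' φ hφ => ?_
        rw [MulAction.mem_stabilizer_iff]
        by_cases hv' : v' = 0
        · have : tv v' φ = 1 := SLn.ext_smul fun u => by
            rw [tv_smul hφ, hv', smul_zero, add_zero, one_smul]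
          rw [this, one_smul]
        haveI : Nontrivial (Fin n) := ⟨⟨⟨0, by omega⟩, ⟨1, by omega⟩, by simp⟩⟩
        obtain ⟨g, rfl⟩ := SLn.exists_smul_eq hv hv'
        have := fixes_smul (fixes_of_card_orb (hone (g⁻¹ • x))) g φ hφ
        rwa [smul_inv_smul] at this
      obtain ⟨g, hg⟩ := MulAction.exists_smul_eq (SpecialLinearGroup (Fin n) F) x y
      have hgm : g ∈ MulAction.stabilizer (SpecialLinearGroup (Fin n) F) x := htop ▸ Subgroup.mem_top g
      exact hxy (hgm.symm.trans hg)
    · exact hk1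
    · exfalso
      obtain ⟨r, hr⟩ : ∃ r, k w₀ = r + 2 := ⟨k w₀ - 2, by omega⟩
      obtain ⟨Q, hQ⟩ : ∃ Q, q ^ (n - 1) = Q + 1 := ⟨q ^ (n - 1) - 1, by omega⟩
      obtain ⟨s, hs⟩ : ∃ s, q = s + 2 := ⟨q - 2, by omega⟩
      rw [hr, hQ] at hm
      have hm' : Fintype.card Ω = N + Q * (r + 2) := by linarith
      rw [hqn, hQ, hm', hs] at hlt
      rw [show (s + 2) * (Q + 1) - 1 = (s + 2) * Q + s + 1 by ring_nf; omega, show s + 2 - 1 = s + 1 by omega] at hlt
      have h1 : (1 + Q * 2) * (s + 1) ≤ (N + Q * (r + 2)) * (s + 1) :=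
        Nat.mul_le_mul_right _ (Nat.add_le_add hN (Nat.mul_le_mul_left _ (by omega)))
      have h2 : (1 + Q * 2) * (s + 1) = (s + 2) * Q + Q * s + s + 1 := by ring
      omega
  refine ⟨by rw [hk1, mul_one] at hm; exact hm, fun w hw => ?_, fun w x y hw hx hy => ?_⟩
  · have h1 : k w = 1 := (hk w (Finset.mem_filter.mpr ⟨Finset.mem_univ _, hw⟩)).trans hk1
    obtain ⟨O, hO⟩ := Finset.card_pos.mp (show 0 < k w by omega)
    obtain ⟨-, x, -, hx⟩ := Finset.mem_filter.mp hO
    exact ⟨x, hx⟩
  · have h1 : k w = 1 := (hk w (Finset.mem_filter.mpr ⟨Finset.mem_univ _, hw⟩)).trans hk1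
    refine Finset.card_le_one.mp h1.le _ ?_ _ ?_
    · exact Finset.mem_filter.mpr ⟨Finset.mem_image_of_mem _ (Finset.mem_univ x), x, self_mem_orb v x, hx⟩
    · exact Finset.mem_filter.mpr ⟨Finset.mem_image_of_mem _ (Finset.mem_univ y), y, self_mem_orb v y, hy⟩

/-- A dual space not inside a plane through `v` is everything. -/
theorem WS_top_or_plane (hn : 3 ≤ n) (hlt : Fintype.card Ω * (Fintype.card F - 1) < Fintype.card F ^ n - 1)
    {v : Fin n → F} (hv : v ≠ 0) {x : Ω} {w : Fin n → F} (hw : w ∉ Submodule.span F {v})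
    (hwx : w ∈ WS p v x) : (∀ u, u ∈ WS p v x) ∨ ∀ u ∈ WS p v x, u ∈ Submodule.span F {v, w} := by
  classical
  obtain ⟨-, -, huniq⟩ := exists_unique_class p (Ω := Ω) hn hlt hv
  refine or_iff_not_imp_right.mpr fun h => ?_
  push Not at h
  obtain ⟨u, hu, hus⟩ := h
  -- invariance under transvections fixing `v` and a vector of the space
  have hinv : ∀ (a : Fin n → F), a ∉ Submodule.span F {v} → a ∈ WS p v x →
      ∀ (z ψ : Fin n → F), ψ ⬝ᵥ z = 0 → ψ ⬝ᵥ v = 0 → ψ ⬝ᵥ a = 0 → ∀ b ∈ WS p v x,
        b + (ψ ⬝ᵥ b) • z ∈ WS p v x := by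
    intro a ha hax z ψ hz hψv hψa b hb
    have hgv : tv z ψ • v = v := by rw [tv_smul hz, hψv, zero_smul, add_zero]
    have hga : tv z ψ • a = a := by rw [tv_smul hz, hψa, zero_smul, add_zero]
    have h1 := smul_mem_WS p hgv hax
    rw [hga] at h1
    have h2 := huniq a _ _ ha h1 hax
    have h3 := smul_mem_WS p hgv hb
    rw [tv_smul hz, WS_orb p (show tv z ψ • x ∈ orb v x from h2 ▸ self_mem_orb v _)] at h3
    exact h3
  have hu' : u ∉ Submodule.span F {v} := fun h' =>
    hus (Submodule.span_mono (by simp) h')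
  have hws : w ∉ Submodule.span F {v, u} := by
    intro h'
    obtain ⟨c, d, hcd⟩ := Submodule.mem_span_pair.mp h'
    by_cases hd : d = 0
    · rw [hd, zero_smul, add_zero] at hcd
      exact hw (Submodule.mem_span_singleton.mpr ⟨c, hcd⟩)
    · refine hus (Submodule.mem_span_pair.mpr ⟨-(c / d), d⁻¹, ?_⟩)
      rw [← hcd, smul_add, smul_smul, smul_smul, inv_mul_cancel₀ hd, one_smul, ← add_assoc, ← add_smul,
        div_eq_inv_mul, neg_add_cancel, zero_smul, zero_add]
  have hscalar : ∀ (a b : Fin n → F), a ∉ Submodule.span F {v} → a ∈ WS p v x → b ∈ WS p v x →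
      b ∉ Submodule.span F {v, a} → ∀ c : F, c • a ∈ WS p v x := by
    intro a b ha hax hbx hb c
    obtain ⟨ψ, hψb, hψ⟩ := exists_dual hb
    have hψa := hψ a (Submodule.subset_span (by simp))
    have := hinv a ha hax (c • a) ψ (by rw [dotProduct_smul, hψa, smul_zero])
      (hψ v (Submodule.subset_span (by simp))) hψa b hbx
    rw [hψb, one_smul] at this
    simpa using (WS p v x).sub_mem this hbx
  have hu_scal : ∀ c : F, c • u ∈ WS p v x := hscalar u w hu' hu hwx hws
  intro t
  obtain ⟨ψ, hψu, hψ⟩ := exists_dual hus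
  have hψv := hψ v (Submodule.subset_span (by simp))
  have hψw := hψ w (Submodule.subset_span (by simp))
  have hz : ψ ⬝ᵥ (t - (ψ ⬝ᵥ t) • u) = 0 := by
    rw [dotProduct_sub, dotProduct_smul, hψu, smul_eq_mul, mul_one, sub_self]
  have h1 := hinv w hw hwx _ ψ hz hψv hψw u hu
  rw [hψu, one_smul] at h1
  have h2 := (WS p v x).add_mem ((WS p v x).sub_mem h1 hu) (hu_scal (ψ ⬝ᵥ t))
  simpa using h2

end

variable [MulAction.IsPretransitive (SpecialLinearGroup (Fin n) F) Ω] [Nontrivial Ω]

/-- The two possibilities for a small representation. -/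
theorem dichotomy (hn : 3 ≤ n) (hlt : Fintype.card Ω * (Fintype.card F - 1) < Fintype.card F ^ n - 1) :
    ((∀ v : Fin n → F, v ≠ 0 → ∀ x : Ω, Fixes v x ∨ Free v x) ∧
      (∀ v : Fin n → F, v ≠ 0 →
        Nat.card {x : Ω // Fixes v x} + Fintype.card F ^ (n - 1) = Fintype.card Ω) ∧
      ∀ v : Fin n → F, v ≠ 0 → ∀ x y : Ω, ¬ Fixes v x → ¬ Fixes v y →
        ∃ φ : Fin n → F, φ ⬝ᵥ v = 0 ∧ tv v φ • x = y) ∨
    ∀ v : Fin n → F, v ≠ 0 → ∀ x : Ω, Plane v x := by
  classical
  obtain ⟨p, hp⟩ := CharP.exists F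
  haveI := hp
  haveI : Fact p.Prime := ⟨CharP.char_is_prime F p⟩
  letI : Algebra (ZMod p) F := ZMod.algebra F p
  haveI : Nontrivial (Fin n) := ⟨⟨⟨0, by omega⟩, ⟨1, by omega⟩, by simp⟩⟩
  set q := Fintype.card F with hq
  have hq2 : 2 ≤ q := Fintype.one_lt_card
  by_cases hF : ∀ v : Fin n → F, v ≠ 0 → ∃ x : Ω, ∀ w, w ∈ WS p v x
  · left
    have hfix : ∀ v : Fin n → F, v ≠ 0 → ∀ x₀ : Ω, (∀ w, w ∈ WS p v x₀) → ∀ x : Ω, x ∉ orb v x₀ → Fixes v x := by
      intro v hv x₀ hx₀ x hx
      obtain ⟨-, -, huniq⟩ := exists_unique_class p (Ω := Ω) hn hlt hv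
      refine fixes_of_WS_le p hv fun w hw => ?_
      by_contra hwl
      exact hx (huniq w x x₀ hwl hw (hx₀ w) ▸ self_mem_orb v x)
    refine ⟨fun v hv x => ?_, fun v hv => ?_, fun v hv x y hx hy => ?_⟩
    · obtain ⟨x₀, hx₀⟩ := hF v hv
      by_cases hx : x ∈ orb v x₀
      · exact Or.inr (free_of_WS_top p fun w => WS_orb p hx ▸ hx₀ w)
      · exact Or.inl (hfix v hv x₀ hx₀ x hx)
    · obtain ⟨x₀, hx₀⟩ := hF v hv
      have hreg : (orb v x₀).card = q ^ (n - 1) := by
        have h1 := card_WS p hv x₀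
        rw [Nat.card_eq_fintype_card, Fintype.card_congr (Equiv.subtypeUnivEquiv hx₀), Fintype.card_fun,
          Fintype.card_fin] at h1
        refine Nat.eq_of_mul_eq_mul_left (by omega : 0 < q) ?_
        rw [← h1, ← pow_succ', Nat.sub_add_cancel (by omega : 1 ≤ n)]
      have hset : (Finset.univ.filter fun x : Ω => Fixes v x) = Finset.univ \ orb v x₀ := by
        ext x
        simp only [Finset.mem_filter, Finset.mem_univ, true_and, Finset.mem_sdiff]
        refine ⟨fun hx hmem => ?_, hfix v hv x₀ hx₀ x⟩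
        have h1 : orb v x = {x} := by
          ext y
          rw [mem_orb, Finset.mem_singleton]
          exact ⟨fun ⟨φ, hφ, h⟩ => h ▸ hx φ hφ, fun h => h ▸ ⟨0, zero_dotProduct v, by rw [tv_zero, one_smul]⟩⟩
        rw [orb_eq_of_mem hmem] at h1
        have h2 : 2 ≤ (orb v x₀).card := by
          rw [hreg]; exact hq2.trans (Nat.le_self_pow (by omega) q)
        rw [h1, Finset.card_singleton] at h2
        omega
      rw [Nat.card_eq_fintype_card, Fintype.card_subtype, hset, ← hreg, Finset.card_sdiff_add_card_eq_card (Finset.subset_univ _),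
        Finset.card_univ]
    · obtain ⟨x₀, hx₀⟩ := hF v hv
      have h1 : x ∈ orb v x₀ := by_contra fun h => hx (hfix v hv x₀ hx₀ x h)
      have h2 : y ∈ orb v x₀ := by_contra fun h => hy (hfix v hv x₀ hx₀ y h)
      rw [← orb_eq_of_mem h1] at h2
      exact mem_orb.mp h2
  · right
    push Not at hF
    obtain ⟨v₁, hv₁, hno₁⟩ := hF
    have hno : ∀ v : Fin n → F, v ≠ 0 → ∀ x : Ω, ∃ w, w ∉ WS p v x := by
      intro v hv x
      by_contra hc
      push Not at hc
      obtain ⟨g, rfl⟩ := SLn.exists_smul_eq hv hv₁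
      obtain ⟨w, hw⟩ := hno₁ (g • x)
      refine hw ((mem_ann p).mpr fun φ hφ => ?_)
      rw [free_smul (free_of_WS_top p hc) g φ ((mem_stabFun p).mp hφ).1 ((mem_stabFun p).mp hφ).2,
        zero_dotProduct, map_zero]
    intro v hv x
    obtain ⟨hm, -, -⟩ := exists_unique_class p (Ω := Ω) hn hlt hv
    rw [← hq] at hm
    have hsmall : ∀ z : Ω, ¬ Fixes v z → ∃ w, w ∉ Submodule.span F {v} ∧
        ∀ u ∈ WS p v z, u ∈ Submodule.span F {v, w} := by
      intro z hz
      by_contra hc
      push Not at hc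
      refine hz (fixes_of_WS_le p hv fun w hw => by_contra fun hwl => ?_)
      rcases WS_top_or_plane p hn hlt hv hwl hw with h | h
      · exact (hno v hv z).elim fun u hu => hu (h u)
      · obtain ⟨u, hu, hus⟩ := hc w hwl
        exact hus (h u hu)
    have hpair : ∀ (w : Fin n → F) (u : Fin n → F), u ∈ Submodule.span F {v, w} →
        u ∈ (Finset.univ.image fun cd : F × F => cd.1 • v + cd.2 • w) := by
      intro w u hu
      obtain ⟨c, d, hcd⟩ := Submodule.mem_span_pair.mp hu
      exact Finset.mem_image.mpr ⟨(c, d), Finset.mem_univ _, hcd⟩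
    have hle : ∀ z : Ω, (orb v z).card ≤ q := by
      intro z
      by_cases hz : Fixes v z
      · have : orb v z ⊆ {z} := fun y hy => by
          obtain ⟨φ, hφ, rfl⟩ := mem_orb.mp hy
          exact Finset.mem_singleton.mpr (hz φ hφ)
        have := Finset.card_le_card this
        rw [Finset.card_singleton] at this
        omega
      · obtain ⟨w, -, hw⟩ := hsmall z hz
        have h1 : (Finset.univ.filter fun u => u ∈ WS p v z) ⊆
            (Finset.univ.image fun cd : F × F => cd.1 • v + cd.2 • w) := fun u hu =>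
          hpair w u (hw u (Finset.mem_filter.mp hu).2)
        have h2 := (Finset.card_le_card h1).trans Finset.card_image_le
        rw [← Fintype.card_subtype, ← Nat.card_eq_fintype_card, Finset.card_univ, Fintype.card_prod, card_WS p hv] at h2
        exact Nat.le_of_mul_le_mul_left h2 (by omega)
    set N := (classes (Ω := Ω) v).card
    have hfull : (orb v x).card = q := by
      obtain ⟨t, ht⟩ := Nat.sub_dvd_pow_sub_pow q 1 (n - 1)
      rw [one_pow] at ht
      have hQ : 0 < q ^ (n - 1) := pow_pos (by omega) _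
      have h1 : (q - 1) * t ≤ (q - 1) * N := by
        rw [← ht]
        have h4 : ∑ O ∈ classes (Ω := Ω) v, O.card ≤ ∑ O ∈ classes (Ω := Ω) v, q := Finset.sum_le_sum fun O hO => by
          obtain ⟨z, -, rfl⟩ := Finset.mem_image.mp hO
          exact hle z
        rw [sum_classes, Finset.sum_const, smul_eq_mul] at h4
        change _ ≤ N * q at h4
        rw [Nat.sub_one_mul, mul_comm q]
        omega
      have h2 : (q - 1) * N < (q - 1) * (t + 1) := by
        have hqn : q ^ n = q * q ^ (n - 1) := by rw [← pow_succ', Nat.sub_add_cancel (by omega : 1 ≤ n)]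
        obtain ⟨s, hs⟩ : ∃ s, q = s + 1 := ⟨q - 1, by omega⟩
        obtain ⟨Q, hQ'⟩ : ∃ Q, q ^ (n - 1) = Q + 1 := ⟨q ^ (n - 1) - 1, by omega⟩
        rw [hqn, hQ', hs, Nat.add_sub_cancel] at hlt
        rw [hQ', hs] at ht
        rw [hQ'] at hm
        rw [hs]
        simp only [Nat.add_sub_cancel] at ht ⊢
        have hmm : Fintype.card Ω = N + Q := by omega
        rw [hmm] at hlt
        rw [show (s + 1) * (Q + 1) - 1 = s * Q + s + Q by ring_nf; omega, add_mul, mul_comm Q s] at hlt
        rw [mul_add, mul_one, ← ht, mul_comm s N]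
        omega
      have hNt : N = t :=
        le_antisymm (Nat.lt_succ_iff.mp (Nat.lt_of_mul_lt_mul_left h2)) (Nat.le_of_mul_le_mul_left h1 (by omega))
      have h3 : ∑ O ∈ classes (Ω := Ω) v, O.card = ∑ O ∈ classes (Ω := Ω) v, q := by
        rw [sum_classes, Finset.sum_const, smul_eq_mul, mul_comm]
        show _ = q * N
        obtain ⟨s, hs⟩ : ∃ s, q = s + 1 := ⟨q - 1, by omega⟩
        rw [hNt] at hm ⊢
        rw [hs, Nat.add_sub_cancel] at ht
        rw [hs] at hm
        rw [hs, add_mul, one_mul]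
        have := hQ
        rw [hs] at this
        omega
      refine (Finset.sum_eq_sum_iff_of_le ?_).mp h3 (orb v x) (Finset.mem_image_of_mem _ (Finset.mem_univ x))
      intro O hO
      obtain ⟨z, -, rfl⟩ := Finset.mem_image.mp hO
      exact hle z
    have hnf : ¬ Fixes v x := by
      intro hx
      have : orb v x ⊆ {x} := fun y hy => by
        obtain ⟨φ, hφ, rfl⟩ := mem_orb.mp hy
        exact Finset.mem_singleton.mpr (hx φ hφ)
      have := Finset.card_le_card this
      rw [Finset.card_singleton, hfull] at this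
      omega
    obtain ⟨w, hw, hwx⟩ := hsmall x hnf
    have hli : LinearIndependent F ![v, w] :=
      linearIndependent_fin2.mpr ⟨fun h => hw (by simp only [Matrix.cons_val_one, Matrix.cons_val_zero] at h; rw [h]; exact Submodule.zero_mem _),
        fun c h => hw (by
          simp only [Matrix.cons_val_one, Matrix.cons_val_zero] at h
          have hc : c ≠ 0 := fun hc => hv (by rw [← h, hc, zero_smul])
          exact Submodule.mem_span_singleton.mpr ⟨c⁻¹, by rw [← h, smul_smul, inv_mul_cancel₀ hc, one_smul]⟩)⟩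
    have hfr : Module.finrank F (Submodule.span F {v, w}) = 2 := by
      have := finrank_span_eq_card hli
      rwa [Matrix.range_cons, Matrix.range_cons, Matrix.range_empty, Set.union_empty, Set.singleton_union,
        Fintype.card_fin] at this
    have heq : ∀ u ∈ Submodule.span F {v, w}, u ∈ WS p v x := by
      intro u hu
      have h1 : (Finset.univ.filter fun u => u ∈ WS p v x) = Finset.univ.filter fun u => u ∈ Submodule.span F {v, w} := by
        apply Finset.eq_of_subset_of_card_le
        · intro u hu'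
          simp only [Finset.mem_filter, Finset.mem_univ, true_and] at hu' ⊢
          exact hwx u hu'
        · rw [← Fintype.card_subtype, ← Fintype.card_subtype, ← Nat.card_eq_fintype_card, ← Nat.card_eq_fintype_card,
            card_WS p hv, hfull, Module.natCard_eq_pow_finrank (K := F) (V := Submodule.span F {v, w}), hfr,
            Nat.card_eq_fintype_card, sq]
      have := (Finset.ext_iff.mp h1 u).mpr (Finset.mem_filter.mpr ⟨Finset.mem_univ _, hu⟩)
      exact (Finset.mem_filter.mp this).2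
    refine ⟨Submodule.span F {v, w}, hfr, Submodule.subset_span (by simp), fun φ => ⟨fun hφ u hu => ?_, fun hφ => ?_⟩⟩
    · by_contra hne
      obtain ⟨a, ha⟩ := Algebra.trace_surjective (ZMod p) F 1
      have h5 := (mem_ann p).mp (heq ((a / (φ ⬝ᵥ u)) • u) (Submodule.smul_mem _ _ hu)) φ ((mem_stabFun p).mpr hφ)
      rw [dotProduct_smul, smul_eq_mul, div_mul_cancel₀ _ hne, ha] at h5
      exact one_ne_zero h5
    · exact (mem_stabFun p).mp (mem_of_ann p fun u hu => by rw [hφ u (hwx u hu), map_zero])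

end CfsgLib.MinIndexSL
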