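import Cfsg.Agent.MinIndexSL.Structure

/-!
The minimal degree of a permutation representation of `SL_n`, `n ≥ 3`.
-/

set_option autoImplicit false
set_option linter.style.haveILetI false

namespace CfsgLib.MinIndexSL

open Matrix
open scoped Matrix

variable {n : ℕ} {F : Type*} [Field F] [Fintype F] [DecidableEq F]
variable {Ω : Type*} [MulAction (SpecialLinearGroup (Fin n) F) Ω]

/-- A diagonal element. -/
def dg (d : Fin n → F) (h : ∏ i, d i = 1) : SpecialLinearGroup (Fin n) F :=
  ⟨Matrix.diagonal d, by rw [det_diagonal, h]⟩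

omit [Fintype F] [DecidableEq F] in
theorem dg_smul_apply (d : Fin n → F) (h : ∏ i, d i = 1) (u : Fin n → F) (k : Fin n) :
    (dg d h • u) k = d k * u k := by
  rw [Matrix.SpecialLinearGroup.smul_def, smul_eq_mulVec]
  exact mulVec_diagonal d u k

omit [Fintype F] [DecidableEq F] in
theorem pull_dg_apply (d : Fin n → F) (h : ∏ i, d i = 1) (φ : Fin n → F) (k : Fin n) :
    pull (dg d h) φ k * d k = φ k := by
  have h1 := pull_smul_dot (dg d h) φ (Pi.single k 1)
  have h2 : dg d h • (Pi.single k 1 : Fin n → F) = Pi.single k (d k) := by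
    funext i
    rw [dg_smul_apply]
    by_cases hik : i = k
    · subst hik; simp
    · simp [hik]
  rwa [h2, dotProduct_single, dotProduct_single, mul_one] at h1

omit [Fintype F] [DecidableEq F] in
theorem pull_dg (d : Fin n → F) (h : ∏ i, d i = 1) (φ : Fin n → F) :
    pull (dg d h) φ = fun k => φ k * (d k)⁻¹ := by
  funext k
  have hk : d k ≠ 0 := fun h0 => one_ne_zero (α := F) (h ▸ Finset.prod_eq_zero (Finset.mem_univ k) h0)
  rw [eq_mul_inv_iff_mul_eq₀ hk, pull_dg_apply]

omit [Fintype F] [DecidableEq F] in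
theorem dg_two {d : Fin n → F} (h : ∏ i, d i = 1) (h2 : ∀ i, d i * d i = 1) (φ : Fin n → F) :
    pull (dg d h) φ = fun k => d k * φ k := by
  funext k
  have h1 := pull_dg_apply d h φ k
  calc pull (dg d h) φ k = pull (dg d h) φ k * d k * d k := by rw [mul_assoc, h2, mul_one]
    _ = d k * φ k := by rw [h1, mul_comm]

section

variable {x : Ω} (hx : ∀ v : Fin n → F, v ≠ 0 → Free v x ∧ ∀ y : Ω, ∃ φ : Fin n → F, φ ⬝ᵥ v = 0 ∧ tv v φ • x = y)

omit [Fintype F] in
include hx in
theorem unique_shift {v : Fin n → F} (hv : v ≠ 0) {g : SpecialLinearGroup (Fin n) F} {φ χ : Fin n → F}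
    (hφ : φ ⬝ᵥ v = 0) (hχ : χ ⬝ᵥ v = 0) (h1 : (tv v φ * g) • x = x) (h2 : (tv v χ * g) • x = x) : φ = χ := by
  rw [← sub_eq_zero]
  have hd : (φ - χ) ⬝ᵥ v = 0 := by rw [sub_dotProduct, hφ, hχ, sub_zero]
  refine (hx v hv).1 _ hd ?_
  calc tv v (φ - χ) • x = tv v (φ - χ) • (tv v χ * g) • x := by rw [h2]
    _ = (tv v φ * g) • x := by rw [← mul_smul, ← mul_assoc, tv_add hd hχ, sub_add_cancel]
    _ = x := h1

omit [Fintype F] in
include hx in
theorem exists_shift {v : Fin n → F} (hv : v ≠ 0) (g : SpecialLinearGroup (Fin n) F) :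
    ∃ φ : Fin n → F, φ ⬝ᵥ v = 0 ∧ (tv v φ * g) • x = x := by
  obtain ⟨φ, hφ, h⟩ := (hx v hv).2 (g • x)
  refine ⟨-φ, by rw [neg_dotProduct, hφ, neg_zero], ?_⟩
  rw [mul_smul, ← tv_inv hφ, inv_smul_eq_iff, h]

omit [Fintype F] in
include hx in
/-- Equivariance of the cocycle. -/
theorem shift_equivariant {v a φ ψ : Fin n → F} (hv : v ≠ 0) (hψv : ψ ⬝ᵥ v = 0) (hψa : ψ ⬝ᵥ a = 0)
    (hφ : φ ⬝ᵥ v = 0) (hfix : (tv v φ * tv a ψ) • x = x) {g : SpecialLinearGroup (Fin n) F} {lam : F}
    (hlam : lam ≠ 0) (hgv : g • v = v) (hga : g • a = lam • a) (hgψ : pull g ψ = lam⁻¹ • ψ) :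
    ∃ c : F, φ = pull g φ + c • ψ := by
  obtain ⟨χ, hχ, hg'⟩ := exists_shift hx hv g
  have hgφ : pull g φ ⬝ᵥ v = 0 := by rw [← hgv, pull_smul_dot, hφ]
  set c := χ ⬝ᵥ (lam • a)
  refine ⟨c * lam⁻¹, unique_shift hx hv hφ ?_ hfix ?_⟩
  · rw [add_dotProduct, smul_dotProduct, hgφ, hψv, smul_zero, add_zero]
  set g' := tv v χ * g with hg''
  have hconj : g' * (tv v φ * tv a ψ) * g'⁻¹ = tv v (pull g φ + (c * lam⁻¹) • ψ) * tv a ψ := by
    have e1 : g' * (tv v φ * tv a ψ) * g'⁻¹ = (g' * tv v φ * g'⁻¹) * (g' * tv a ψ * g'⁻¹) := by group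
    have hv' : g' • v = v := by rw [hg'', mul_smul, hgv, tv_smul hχ, hχ, zero_smul, add_zero]
    have ha' : g' • a = c • v + lam • a := by rw [hg'', mul_smul, hga, tv_smul hχ, add_comm]
    have hφ' : pull g' φ = pull g φ := by rw [hg'', ← pull_pull, pull_tv hχ, hgφ, zero_smul, sub_zero]
    have hψ' : pull g' ψ = lam⁻¹ • ψ := by
      rw [hg'', ← pull_pull, hgψ, pull_tv hχ, smul_dotProduct, hψv, smul_zero, zero_smul, sub_zero]
    have hcv : (lam⁻¹ • ψ) ⬝ᵥ (c • v) = 0 := by rw [smul_dotProduct, dotProduct_smul, hψv, smul_zero, smul_zero]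
    have hla : (lam⁻¹ • ψ) ⬝ᵥ (lam • a) = 0 := by rw [smul_dotProduct, dotProduct_smul, hψa, smul_zero, smul_zero]
    rw [e1, conj_tv hφ, conj_tv hψa, hv', ha', hφ', hψ', ← tv_add_left hcv hla,
      tv_smul_left c (by rw [smul_dotProduct, hψv, smul_zero]), tv_smul_left lam (by rw [smul_dotProduct, hψa, smul_zero]),
      smul_smul, smul_smul, mul_inv_cancel₀ hlam, one_smul, ← mul_assoc,
      tv_add hgφ (by rw [smul_dotProduct, hψv, smul_zero])]
  rw [← hconj, mul_smul, mul_smul, show g'⁻¹ • x = x from inv_smul_eq_iff.mpr hg'.symm, hfix, hg']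

omit [Fintype F] in
include hx in
/-- The cocycle value at a transvection is not a multiple of its axis. -/
theorem shift_not_axis {v a φ ψ : Fin n → F} (hψ : ψ ≠ 0) (hψv : ψ ⬝ᵥ v = 0) (hψa : ψ ⬝ᵥ a = 0)
    (hav : a ∉ Submodule.span F {v}) (hfix : (tv v φ * tv a ψ) • x = x) {c : F} (hc : φ = c • ψ) : False := by
  rw [hc, ← tv_smul_left c hψv, tv_add_left (by rw [dotProduct_smul, hψv, smul_zero]) hψa] at hfix
  refine hψ ((hx _ ?_).1 ψ (by rw [dotProduct_add, dotProduct_smul, hψv, hψa, smul_zero, add_zero]) hfix)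
  intro h
  apply hav
  rw [eq_neg_of_add_eq_zero_right h]
  exact Submodule.neg_mem _ (Submodule.smul_mem _ _ (Submodule.mem_span_singleton_self v))

omit [Fintype F] [DecidableEq F] in
theorem single_ne_line {i j : Fin n} (hij : i ≠ j) :
    (Pi.single i 1 : Fin n → F) ∉ Submodule.span F {Pi.single j 1} := by
  intro h
  obtain ⟨c, hc⟩ := Submodule.mem_span_singleton.mp h
  have := congrFun hc i
  simp [hij] at this

omit [Fintype F] [DecidableEq F] in
theorem single_dot {i j : Fin n} (hij : i ≠ j) :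
    (Pi.single i 1 : Fin n → F) ⬝ᵥ Pi.single j 1 = 0 := by
  rw [dotProduct_single, mul_one, Pi.single_eq_of_ne hij.symm]

omit [Fintype F] in
include hx in
/-- Coordinates of the cocycle killed by transvections. -/
theorem shift_coord {o k l i j : Fin n} {φ : Fin n → F} (_hko : k ≠ o) (hlo : l ≠ o) (hlk : l ≠ k)
    (hio : i ≠ o) (hik : i ≠ k) (hil : i ≠ l) (hij : i ≠ j) (hjl : j ≠ l) (hφ : φ o = 0)
    (hfix : (tv (Pi.single o 1) φ * tv (Pi.single k 1) (Pi.single l 1)) • x = x) : φ j = 0 := by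
  have hij' : (Pi.single i 1 : Fin n → F) ⬝ᵥ Pi.single j 1 = 0 := single_dot hij
  obtain ⟨c, hc⟩ := shift_equivariant hx (v := Pi.single o 1) (a := Pi.single k 1) (ψ := Pi.single l 1) (φ := φ)
    (g := tv (Pi.single j 1) (Pi.single i 1)) (lam := 1) (Pi.single_ne_zero_iff.2 one_ne_zero)
    (single_dot hlo) (single_dot hlk) (by rw [dotProduct_single, mul_one, hφ]) hfix one_ne_zero
    (by rw [tv_smul hij', single_dot hio, zero_smul, add_zero])
    (by rw [tv_smul hij', single_dot hik, zero_smul, add_zero, one_smul])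
    (by rw [pull_tv hij', single_dot hjl.symm, zero_smul, sub_zero, inv_one, one_smul])
  rw [pull_tv hij', dotProduct_single, mul_one] at hc
  have h := congrFun hc i
  simp [hil] at h
  linear_combination h

end

omit [Fintype F] in
theorem false_of_five (hn : 5 ≤ n) {x : Ω}
    (hx : ∀ v : Fin n → F, v ≠ 0 → Free v x ∧ ∀ y : Ω, ∃ φ : Fin n → F, φ ⬝ᵥ v = 0 ∧ tv v φ • x = y) : False := by
  let e : Fin 5 → Fin n := fun i => ⟨i, by omega⟩
  have he : Function.Injective e := fun a b h => Fin.ext (by simpa [e] using congrArg Fin.val h)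
  have h01 : (Pi.single (e 1) 1 : Fin n → F) ∉ Submodule.span F {Pi.single (e 0) 1} :=
    single_ne_line (he.ne (by decide))
  obtain ⟨φ, hφ, hfix⟩ := exists_shift hx (v := Pi.single (e 0) 1) (Pi.single_ne_zero_iff.2 one_ne_zero)
    (tv (Pi.single (e 1) 1) (Pi.single (e 2) 1))
  rw [dotProduct_single, mul_one] at hφ
  refine shift_not_axis hx (Pi.single_ne_zero_iff.2 one_ne_zero) (single_dot (he.ne (by decide)))
    (single_dot (he.ne (by decide))) h01 hfix (c := φ (e 2)) ?_
  funext j
  by_cases hj2 : j = e 2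
  · simp [hj2]
  rw [Pi.smul_apply, Pi.single_eq_of_ne hj2, smul_zero]
  by_cases hj3 : j = e 3
  · exact shift_coord hx (i := e 4) (he.ne (by decide)) (he.ne (by decide)) (he.ne (by decide))
      (he.ne (by decide)) (he.ne (by decide)) (he.ne (by decide)) (hj3 ▸ he.ne (by decide)) hj2 hφ hfix
  · exact shift_coord hx (i := e 3) (he.ne (by decide)) (he.ne (by decide)) (he.ne (by decide))
      (he.ne (by decide)) (he.ne (by decide)) (he.ne (by decide)) (Ne.symm hj3) hj2 hφ hfix

theorem exists_sq_ne_one (h : 4 ≤ Fintype.card F) : ∃ lam : F, lam ≠ 0 ∧ lam * lam ≠ 1 := by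
  by_contra hc
  push Not at hc
  have hsub : (Finset.univ : Finset F) ⊆ {0, 1, -1} := by
    intro a _
    by_cases ha : a = 0
    · simp [ha]
    · rcases mul_self_eq_one_iff.mp (hc a ha) with h' | h' <;> simp [h']
  have := (Finset.card_le_card hsub).trans Finset.card_le_three
  rw [Finset.card_univ] at this
  omega

theorem false_of_four {Ω : Type*} [MulAction (SpecialLinearGroup (Fin 4) F) Ω] [Fintype Ω]
    (hcard : Fintype.card Ω = Fintype.card F ^ 3) (hq : 3 ≤ Fintype.card F)
    (hx : ∀ v : Fin 4 → F, v ≠ 0 → ∀ x : Ω, Free v x ∧ ∀ y : Ω, ∃ φ : Fin 4 → F, φ ⬝ᵥ v = 0 ∧ tv v φ • x = y) :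
    False := by
  by_cases h4 : 4 ≤ Fintype.card F
  · have hne : 0 < Fintype.card Ω := by rw [hcard]; positivity
    obtain ⟨x⟩ := Fintype.card_pos_iff.mp hne
    have hx' := fun v hv => hx v hv x
    obtain ⟨φ, hφ, hfix⟩ := exists_shift hx' (v := Pi.single 0 1) (Pi.single_ne_zero_iff.2 one_ne_zero)
      (tv (Pi.single 1 1) (Pi.single 2 1))
    rw [dotProduct_single, mul_one] at hφ
    have h1 : φ 1 = 0 := shift_coord hx' (i := 3) (by decide) (by decide) (by decide) (by decide) (by decide)
      (by decide) (by decide) (by decide) hφ hfix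
    obtain ⟨lam, hl, hl2⟩ := exists_sq_ne_one h4
    have hd : ∏ i : Fin 4, ![1, lam, lam, (lam * lam)⁻¹] i = 1 := by
      simp [Fin.prod_univ_four]
      field_simp
    obtain ⟨c, hc⟩ := shift_equivariant hx' (v := Pi.single 0 1) (a := Pi.single 1 1) (ψ := Pi.single 2 1)
      (g := dg _ hd) (lam := lam) (Pi.single_ne_zero_iff.2 one_ne_zero) (single_dot (by decide))
      (single_dot (by decide)) (by rw [dotProduct_single, mul_one, hφ]) hfix hl
      (by funext k; rw [dg_smul_apply]; fin_cases k <;> simp)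
      (by funext k; rw [dg_smul_apply]; fin_cases k <;> simp)
      (by rw [pull_dg _ hd]; funext k; fin_cases k <;> simp)
    have h3 : φ 3 = 0 := by
      have := congrFun hc 3
      rw [pull_dg _ hd] at this
      simp at this
      exact (mul_eq_zero.mp (show (lam * lam - 1) * φ 3 = 0 by linear_combination -this)).resolve_left
        (sub_ne_zero.mpr hl2)
    refine shift_not_axis hx' (Pi.single_ne_zero_iff.2 one_ne_zero) (single_dot (by decide))
      (single_dot (by decide)) (single_ne_line (by decide)) hfix (c := φ 2) ?_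
    funext k
    fin_cases k <;> simp [hφ, h1, h3]
  · have hq3 : Fintype.card F = 3 := by omega
    have h2 : (2 : F) ≠ 0 := by
      intro h
      obtain ⟨p, hp⟩ := CharP.exists F
      have hpd : p ∣ Fintype.card F := (CharP.cast_eq_zero_iff F p _).mp (Nat.cast_card_eq_zero F)
      have hp2 : p ∣ 2 := (CharP.cast_eq_zero_iff F p 2).mp (by exact_mod_cast h)
      rw [hq3] at hpd
      have := Nat.dvd_gcd hpd hp2
      norm_num at this
      exact CharP.char_ne_one F p this
    have hself : ∀ a : F, a = -a → a = 0 := fun a ha =>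
      (mul_eq_zero.mp (show (2 : F) * a = 0 by linear_combination ha)).resolve_left h2
    have hd : ∏ i : Fin 4, ![(1 : F), -1, -1, 1] i = 1 := by simp [Fin.prod_univ_four]
    have hd2 : ∀ i : Fin 4, ![(1 : F), -1, -1, 1] i * ![(1 : F), -1, -1, 1] i = 1 := by
      intro i; fin_cases i <;> simp
    set t := dg _ hd with ht
    have htt : t * t = 1 := SLn.ext_smul fun u => by
      funext k
      rw [mul_smul, ht, dg_smul_apply, dg_smul_apply, ← mul_assoc, hd2, one_mul, one_smul]
    obtain ⟨x, htx⟩ : ∃ x : Ω, t • x = x := by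
      haveI : Fact (Nat.Prime 2) := ⟨Nat.prime_two⟩
      obtain ⟨x, hx'⟩ := Equiv.Perm.exists_fixed_point_of_prime (p := 2) (n := 1)
        (by rw [hcard, hq3]; norm_num) (σ := MulAction.toPerm t)
        (Equiv.ext fun y => by
          show t • t • y = y
          rw [← mul_smul, htt, one_smul])
      exact ⟨x, hx'⟩
    have hx' := fun v hv => hx v hv x
    have hv0 : (Pi.single 0 1 : Fin 4 → F) ≠ 0 := Pi.single_ne_zero_iff.2 one_ne_zero
    have htinv : t⁻¹ = t := inv_eq_of_mul_eq_one_right htt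
    have htv0 : t • (Pi.single 0 1 : Fin 4 → F) = Pi.single 0 1 := by
      funext k; rw [ht, dg_smul_apply]; fin_cases k <;> simp
    have hconjfix : ∀ h : SpecialLinearGroup (Fin 4) F, h • x = x → (t * h * t⁻¹) • x = x := fun h hh => by
      rw [mul_smul, mul_smul, show t⁻¹ • x = x by rw [htinv]; exact htx, hh, htx]
    -- the first root
    obtain ⟨α, hα, hA⟩ := exists_shift hx' hv0 (tv (Pi.single 1 1) (Pi.single 2 1))
    rw [dotProduct_single, mul_one] at hα
    have hα1 : α 1 = 0 := shift_coord hx' (i := 3) (by decide) (by decide) (by decide) (by decide) (by decide)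
      (by decide) (by decide) (by decide) hα hA
    have hα2 : α 2 = 0 := by
      have h1 := hconjfix _ hA
      have hd0 : α ⬝ᵥ Pi.single 0 1 = 0 := by rw [dotProduct_single, mul_one, hα]
      have h3 : t * (tv (Pi.single 0 1) α * tv (Pi.single 1 1) (Pi.single 2 1)) * t⁻¹ =
          tv (Pi.single 0 1) (pull t α) * tv (Pi.single 1 1) (Pi.single 2 1) := by
        have e1 : t * (tv (Pi.single 0 1) α * tv (Pi.single 1 1) (Pi.single 2 1)) * t⁻¹ =
          (t * tv (Pi.single 0 1) α * t⁻¹) * (t * tv (Pi.single 1 1) (Pi.single 2 1) * t⁻¹) := by group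
        rw [e1, conj_tv hd0, conj_tv (single_dot (by decide)), htv0,
          show t • (Pi.single 1 1 : Fin 4 → F) = (-1 : F) • Pi.single 1 1 by
            funext k; rw [ht, dg_smul_apply]; fin_cases k <;> simp,
          show pull t (Pi.single 2 1 : Fin 4 → F) = (-1 : F) • Pi.single 2 1 by
            rw [ht, dg_two hd hd2]; funext k; fin_cases k <;> simp,
          tv_smul_left (-1 : F) (by rw [smul_dotProduct, single_dot (by decide), smul_zero]), smul_smul]
        norm_num
      rw [h3] at h1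
      have h4 := unique_shift hx' hv0 (by rw [dotProduct_single, mul_one, ht, dg_two hd hd2]; simp [hα]) hd0 h1 hA
      rw [ht, dg_two hd hd2] at h4
      have := congrFun h4 2
      simp at this
      exact hself _ this.symm
    -- the second root
    obtain ⟨β, hβ, hB⟩ := exists_shift hx' hv0 (tv (Pi.single 2 1) (Pi.single 3 1))
    rw [dotProduct_single, mul_one] at hβ
    have hβ2 : β 2 = 0 := shift_coord hx' (i := 1) (by decide) (by decide) (by decide) (by decide) (by decide)
      (by decide) (by decide) (by decide) hβ hB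
    -- their commutator
    set A := tv (Pi.single 0 1) α * tv (Pi.single 1 1) (Pi.single 2 1) with hAdef
    set B := tv (Pi.single 0 1) β * tv (Pi.single 2 1) (Pi.single 3 1) with hBdef
    set r : Fin 4 → F := ![0, 0, -β 1, β 1] with hr
    have hr0 : r ⬝ᵥ Pi.single 0 1 = 0 := by rw [dotProduct_single, mul_one, hr]; simp
    have hC : A * B = tv (Pi.single 0 1) r * tv (Pi.single 1 1) (Pi.single 3 1) * (B * A) := by
      refine SLn.ext_smul fun u => funext fun k => ?_
      simp only [hAdef, hBdef, mul_smul]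
      rw [tv_smul (single_dot (by decide : (2 : Fin 4) ≠ 1)), tv_smul (single_dot (by decide : (3 : Fin 4) ≠ 2)),
        tv_smul (single_dot (by decide : (3 : Fin 4) ≠ 1))]
      simp only [tv_smul (show α ⬝ᵥ Pi.single 0 1 = 0 by rw [dotProduct_single, mul_one, hα]),
        tv_smul (show β ⬝ᵥ Pi.single 0 1 = 0 by rw [dotProduct_single, mul_one, hβ]), tv_smul hr0,
        tv_smul (single_dot (by decide : (2 : Fin 4) ≠ 1)), tv_smul (single_dot (by decide : (3 : Fin 4) ≠ 2))]
      fin_cases k <;> simp [dotProduct, Fin.sum_univ_four, hr, hα, hβ, hα1, hα2, hβ2] <;> ring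
    have hCx : (tv (Pi.single 0 1) r * tv (Pi.single 1 1) (Pi.single 3 1)) • x = x := by
      have h1 : (A * B) • x = x := by rw [mul_smul, hB, hA]
      rwa [hC, mul_smul, show (B * A) • x = x by rw [mul_smul, hA, hB]] at h1
    have hβ1 : β 1 = 0 := by
      have h1 := hconjfix _ hCx
      have e1 : t * (tv (Pi.single 0 1) r * tv (Pi.single 1 1) (Pi.single 3 1)) * t⁻¹ =
          tv (Pi.single 0 1) (pull t r) * tv (Pi.single 1 1) (-Pi.single 3 1) := by
        have e2 : t * (tv (Pi.single 0 1) r * tv (Pi.single 1 1) (Pi.single 3 1)) * t⁻¹ =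
          (t * tv (Pi.single 0 1) r * t⁻¹) * (t * tv (Pi.single 1 1) (Pi.single 3 1) * t⁻¹) := by group
        rw [e2, conj_tv hr0, conj_tv (single_dot (by decide)), htv0,
          show t • (Pi.single 1 1 : Fin 4 → F) = (-1 : F) • Pi.single 1 1 by
            funext k; rw [ht, dg_smul_apply]; fin_cases k <;> simp,
          show pull t (Pi.single 3 1 : Fin 4 → F) = Pi.single 3 1 by
            rw [ht, dg_two hd hd2]; funext k; fin_cases k <;> simp,
          tv_smul_left (-1 : F) (single_dot (by decide)), neg_one_smul]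
      rw [e1] at h1
      have h2 : (tv (Pi.single 0 1) (-r) * tv (Pi.single 1 1) (-Pi.single 3 1)) • x = x := by
        have h3 : tv (Pi.single 0 1) (-r) * tv (Pi.single 1 1) (-Pi.single 3 1) =
            (tv (Pi.single 0 1) r * tv (Pi.single 1 1) (Pi.single 3 1))⁻¹ := by
          refine eq_inv_of_mul_eq_one_left (SLn.ext_smul fun u => funext fun k => ?_)
          simp only [mul_smul, one_smul]
          simp only [tv_smul hr0, tv_smul (show (-r) ⬝ᵥ Pi.single 0 1 = 0 by rw [neg_dotProduct, hr0, neg_zero]),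
            tv_smul (single_dot (by decide : (3 : Fin 4) ≠ 1)),
            tv_smul (show (-Pi.single 3 1 : Fin 4 → F) ⬝ᵥ Pi.single 1 1 = 0 by
              rw [neg_dotProduct, single_dot (by decide), neg_zero])]
          fin_cases k <;> simp [dotProduct, Fin.sum_univ_four, hr] <;> ring
        rw [h3, inv_smul_eq_iff, hCx]
      have hpr : pull t r ⬝ᵥ Pi.single 0 1 = 0 := by rw [← htv0, pull_smul_dot, hr0]
      have h4 := congrFun (unique_shift hx' hv0 hpr (by rw [neg_dotProduct, hr0, neg_zero]) h1 h2) 3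
      rw [ht, dg_two hd hd2] at h4
      simp [hr] at h4
      exact hself _ h4
    refine shift_not_axis hx' (Pi.single_ne_zero_iff.2 one_ne_zero) (single_dot (by decide))
      (single_dot (by decide)) (single_ne_line (by decide)) hB (c := β 3) ?_
    funext k
    fin_cases k <;> simp [hβ, hβ1, hβ2]

omit [Fintype F] in
theorem false_of_three {Ω : Type*} [MulAction (SpecialLinearGroup (Fin 3) F) Ω] {x : Ω}
    (hx : ∀ v : Fin 3 → F, v ≠ 0 → Free v x ∧ ∀ y : Ω, ∃ φ : Fin 3 → F, φ ⬝ᵥ v = 0 ∧ tv v φ • x = y) : False := by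
  have hv0 : (Pi.single 0 1 : Fin 3 → F) ≠ 0 := Pi.single_ne_zero_iff.2 one_ne_zero
  obtain ⟨φ, hφ, hfix⟩ := exists_shift hx hv0 (tv (Pi.single 1 1) (Pi.single 2 1))
  have hφ' : φ 0 = 0 := by rwa [dotProduct_single, mul_one] at hφ
  have hψv : (Pi.single 2 1 : Fin 3 → F) ⬝ᵥ Pi.single 0 1 = 0 := single_dot (by decide)
  have hψa : (Pi.single 2 1 : Fin 3 → F) ⬝ᵥ Pi.single 1 1 = 0 := single_dot (by decide)
  have h1 : φ 1 = 0 := by
    by_cases h2 : (2 : F) = 0
    · -- the square lies in the transvection group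
      set h := tv (Pi.single 0 1) φ * tv (Pi.single 1 1) (Pi.single 2 1 : Fin 3 → F) with hh
      have hd : (φ 1 • (Pi.single 2 1 : Fin 3 → F)) ⬝ᵥ Pi.single 0 1 = 0 := by
        rw [smul_dotProduct, hψv, smul_zero]
      have hsq : h * h = tv (Pi.single 0 1) (φ 1 • Pi.single 2 1) := by
        refine SLn.ext_smul fun u => funext fun k => ?_
        simp only [hh, mul_smul, tv_smul hφ, tv_smul hψa, tv_smul hd]
        fin_cases k <;> simp [dotProduct, Fin.sum_univ_three, hφ']
        · linear_combination (φ 1 * u 1 + φ 2 * u 2 + φ 1 * u 2) * h2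
        · linear_combination u 2 * h2
      have h3 := (hx _ hv0).1 _ hd (by rw [← hsq, mul_smul, hfix, hfix])
      simpa using congrFun h3 2
    · have hd : ∏ i : Fin 3, ![(1 : F), -1, -1] i = 1 := by simp [Fin.prod_univ_three]
      have hd2 : ∀ i : Fin 3, ![(1 : F), -1, -1] i * ![(1 : F), -1, -1] i = 1 := by
        intro i; fin_cases i <;> simp
      obtain ⟨c, hc⟩ := shift_equivariant hx hv0 hψv hψa hφ hfix (g := dg _ hd) (lam := -1)
        (neg_ne_zero.mpr one_ne_zero)
        (by funext k; rw [dg_smul_apply]; fin_cases k <;> simp)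
        (by funext k; rw [dg_smul_apply]; fin_cases k <;> simp)
        (by rw [dg_two hd hd2]; funext k; fin_cases k <;> simp [inv_neg])
      have := congrFun hc 1
      rw [dg_two hd hd2] at this
      simp at this
      exact (mul_eq_zero.mp (show (2 : F) * φ 1 = 0 by linear_combination this)).resolve_left h2
  refine shift_not_axis hx (Pi.single_ne_zero_iff.2 one_ne_zero) hψv hψa (single_ne_line (by decide)) hfix
    (c := φ 2) ?_
  funext k
  fin_cases k <;> simp [hφ', h1]

/-- A nontrivial permutation representation of `SL_n(q)` has degree at least `(q^n - 1)/(q - 1)`. -/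
theorem card_ge [Fintype Ω] [MulAction.IsPretransitive (SpecialLinearGroup (Fin n) F) Ω] [Nontrivial Ω]
    (hn : 3 ≤ n) (hexc : ¬ (n = 4 ∧ Fintype.card F = 2)) :
    Fintype.card F ^ n - 1 ≤ Fintype.card Ω * (Fintype.card F - 1) := by
  by_contra hlt
  push Not at hlt
  obtain ⟨hcard, hreg⟩ := regular hn hlt
  rcases Nat.lt_or_ge n 5 with h5 | h5
  · interval_cases n
    · exact false_of_three fun v hv => hreg v hv (Classical.arbitrary Ω)
    · refine false_of_four hcard ?_ hreg
      have : 2 ≤ Fintype.card F := Fintype.one_lt_card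
      omega
  · exact false_of_five h5 fun v hv => hreg v hv (Classical.arbitrary Ω)

end CfsgLib.MinIndexSL
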