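import Cfsg.Agent.MinIndexSL.Count

/-!
In a small representation of `SL_n` every transvection group with fixed centre is regular.
-/

set_option autoImplicit false
set_option linter.style.haveILetI false

namespace CfsgLib.MinIndexSL

open Matrix
open scoped Matrix

variable {n : ℕ} {F : Type*} [Field F] [Fintype F] [DecidableEq F]
variable {Ω : Type*} [MulAction (SpecialLinearGroup (Fin n) F) Ω]

theorem not_plane (hn : 3 ≤ n) (x : Ω) (h : ∀ v : Fin n → F, v ≠ 0 → Plane v x) : False := by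
  classical
  choose L hdim hmem hchar using h
  -- a plane is carried into the sum of another plane and the line
  have hA : ∀ (a b : Fin n → F) (ha : a ≠ 0) (hb : b ≠ 0), b ∉ L a ha → L a ha ≤ L b hb ⊔ Submodule.span F {a} := by
    intro a b ha hb hba u hu
    by_contra hnot
    obtain ⟨ψ, hψu, hψ⟩ := exists_dual hnot
    obtain ⟨φ, hφb, hφ⟩ := exists_dual hba
    have hφa : φ ⬝ᵥ a = 0 := hφ a (hmem a ha)
    have hψa : ψ ⬝ᵥ a = 0 := hψ a (Submodule.mem_sup_right (Submodule.mem_span_singleton_self a))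
    have hψb : ψ ⬝ᵥ b = 0 := hψ b (Submodule.mem_sup_left (hmem b hb))
    have h1 := ((hchar a ha φ).mpr hφ).2
    have h2 := ((hchar b hb ψ).mpr fun w hw => hψ w (Submodule.mem_sup_left hw)).2
    have h3 : tv (b + a) ψ • x = x := by
      have h4 := conj_tv hψb (tv a φ)
      rw [pull_tv hφa, hψa, zero_smul, sub_zero, tv_smul hφa, hφb, one_smul] at h4
      rw [← h4, mul_smul, mul_smul, show (tv a φ)⁻¹ • x = x from inv_smul_eq_iff.mpr h1.symm, h2, h1]
    have h5 : tv a ψ • x = x := by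
      have h6 := tv_add_left hψb hψa
      apply MulAction.injective (tv b ψ)
      show tv b ψ • tv a ψ • x = tv b ψ • x
      rw [← mul_smul, h6, h3, h2]
    have h7 := (hchar a ha ψ).mp ⟨hψa, h5⟩ u hu
    rw [hψu] at h7
    exact one_ne_zero h7
  have hsym : ∀ (a u : Fin n → F) (ha : a ≠ 0) (hu : u ≠ 0), u ∈ L a ha → u ∉ Submodule.span F {a} →
      L u hu = L a ha := by
    intro a u ha hu hua hline
    by_cases hau : a ∈ L u hu
    · have hli : LinearIndependent F ![a, u] :=
        linearIndependent_fin2.mpr ⟨by simpa using hu, fun c h => hline (by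
          simp only [Matrix.cons_val_one, Matrix.cons_val_zero] at h
          have hc : c ≠ 0 := fun hc => ha (by rw [← h, hc, zero_smul])
          exact Submodule.mem_span_singleton.mpr ⟨c⁻¹, by rw [← h, smul_smul, inv_mul_cancel₀ hc, one_smul]⟩)⟩
      have hfr : Module.finrank F (Submodule.span F {a, u}) = 2 := by
        have := finrank_span_eq_card hli
        rwa [Matrix.range_cons, Matrix.range_cons, Matrix.range_empty, Set.union_empty, Set.singleton_union,
          Fintype.card_fin] at this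
      rw [← Submodule.eq_of_le_of_finrank_eq (S₁ := Submodule.span F {a, u}) (S₂ := L u hu)
          (Submodule.span_le.mpr (Set.insert_subset hau (Set.singleton_subset_iff.mpr (hmem u hu))))
          (by rw [hfr, hdim]),
        ← Submodule.eq_of_le_of_finrank_eq (S₁ := Submodule.span F {a, u}) (S₂ := L a ha)
          (Submodule.span_le.mpr (Set.insert_subset (hmem a ha) (Set.singleton_subset_iff.mpr hua)))
          (by rw [hfr, hdim])]
    · have h1 := hA u a hu ha hau
      rw [sup_eq_left.mpr ((Submodule.span_singleton_le_iff_mem _ _).mpr hua)] at h1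
      exact Submodule.eq_of_le_of_finrank_eq h1 (by rw [hdim, hdim])
  have hv : (Pi.single ⟨0, by omega⟩ 1 : Fin n → F) ≠ 0 := Pi.single_ne_zero_iff.2 one_ne_zero
  set v : Fin n → F := Pi.single ⟨0, by omega⟩ 1
  obtain ⟨w, hw⟩ : ∃ w, w ∉ L v hv := by
    by_contra hc
    push Not at hc
    have h1 := hdim v hv
    rw [show L v hv = ⊤ from eq_top_iff.mpr fun u _ => hc u, finrank_top, Module.finrank_fin_fun] at h1
    omega
  have hw0 : w ≠ 0 := fun h => hw (h ▸ Submodule.zero_mem _)
  obtain ⟨a, haL, hal⟩ : ∃ a ∈ L v hv, a ∉ Submodule.span F {v} := by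
    by_contra hc
    push Not at hc
    have h1 := Submodule.finrank_mono (show L v hv ≤ Submodule.span F {v} from hc)
    rw [hdim, finrank_span_singleton hv] at h1
    omega
  obtain ⟨b, hb, c, hc, hbc⟩ := Submodule.mem_sup.mp (hA v w hv hw0 hw haL)
  have hbL : b ∈ L v hv := by
    rw [show b = a - c by rw [← hbc, add_sub_cancel_right]]
    exact Submodule.sub_mem _ haL ((Submodule.span_singleton_le_iff_mem _ _).mpr (hmem v hv) hc)
  have hbl : b ∉ Submodule.span F {v} := fun h => hal (hbc ▸ Submodule.add_mem _ h hc)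
  have hb0 : b ≠ 0 := fun h => hbl (h ▸ Submodule.zero_mem _)
  have hbw : b ∉ Submodule.span F {w} := fun h => by
    obtain ⟨e, he⟩ := Submodule.mem_span_singleton.mp h
    have he0 : e ≠ 0 := fun h0 => hb0 (by rw [← he, h0, zero_smul])
    apply hw
    rw [show w = e⁻¹ • b by rw [← he, smul_smul, inv_mul_cancel₀ he0, one_smul]]
    exact Submodule.smul_mem _ _ hbL
  apply hw
  rw [← hsym v b hv hb0 hbL hbl, hsym w b hw0 hb0 hb hbw]
  exact hmem w hw0

variable [Fintype Ω] [MulAction.IsPretransitive (SpecialLinearGroup (Fin n) F) Ω] [Nontrivial Ω]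

/-- All transvection groups with fixed centre act regularly. -/
theorem regular (hn : 3 ≤ n) (hlt : Fintype.card Ω * (Fintype.card F - 1) < Fintype.card F ^ n - 1) :
    Fintype.card Ω = Fintype.card F ^ (n - 1) ∧
      ∀ v : Fin n → F, v ≠ 0 → ∀ x : Ω, Free v x ∧ ∀ y : Ω, ∃ φ : Fin n → F, φ ⬝ᵥ v = 0 ∧ tv v φ • x = y := by
  classical
  haveI : Nontrivial (Fin n) := ⟨⟨⟨0, by omega⟩, ⟨1, by omega⟩, by simp⟩⟩
  rcases dichotomy (Ω := Ω) hn hlt with ⟨hFF, hcount, htr⟩ | hplane
  swap
  · exact (not_plane hn (Classical.arbitrary Ω) fun v hv => hplane v hv _).elim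
  suffices hnone : ∀ v : Fin n → F, v ≠ 0 → ∀ x : Ω, ¬ Fixes v x by
    have hv : (Pi.single ⟨0, by omega⟩ 1 : Fin n → F) ≠ 0 := Pi.single_ne_zero_iff.2 one_ne_zero
    refine ⟨?_, fun v hv x => ⟨(hFF v hv x).resolve_left (hnone v hv x),
      fun y => htr v hv x y (hnone v hv x) (hnone v hv y)⟩⟩
    have h1 := hcount _ hv
    haveI : IsEmpty {x : Ω // Fixes (Pi.single (⟨0, by omega⟩ : Fin n) (1 : F)) x} :=
      ⟨fun z => hnone _ hv z.1 z.2⟩
    rw [Nat.card_of_isEmpty, zero_add] at h1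
    exact h1.symm
  -- the centres of the transvection groups fixing a point form a subspace
  have hscal : ∀ (x : Ω) (v : Fin n → F) (c : F), Fixes v x → Fixes (c • v) x := by
    intro x v c h φ hφ
    by_cases hc : c = 0
    · have : tv (c • v) φ = 1 := SLn.ext_smul fun u => by
        rw [tv_smul hφ, hc, zero_smul, smul_zero, add_zero, one_smul]
      rw [this, one_smul]
    · have hφv : φ ⬝ᵥ v = 0 := by
        rw [dotProduct_smul, smul_eq_mul] at hφ
        exact (mul_eq_zero.mp hφ).resolve_left hc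
      rw [tv_smul_left c hφv]
      exact h _ (by rw [smul_dotProduct, hφv, smul_zero])
  have hzero : ∀ x : Ω, Fixes (0 : Fin n → F) x := fun x φ hφ => by
    have : tv (0 : Fin n → F) φ = 1 := SLn.ext_smul fun u => by
      rw [tv_smul hφ, smul_zero, add_zero, one_smul]
    rw [this, one_smul]
  have hadd : ∀ (x : Ω) (a b : Fin n → F), Fixes a x → Fixes b x → Fixes (a + b) x := by
    intro x a b ha hb
    by_cases ha0 : a = 0
    · rw [ha0, zero_add]; exact hb
    by_cases hba : b ∈ Submodule.span F {a}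
    · obtain ⟨c, rfl⟩ := Submodule.mem_span_singleton.mp hba
      rw [show a + c • a = (1 + c) • a by rw [add_smul, one_smul]]
      exact hscal x a _ ha
    obtain ⟨φ, hφb, hφ⟩ := exists_dual hba
    have hφa := hφ a (Submodule.mem_span_singleton_self a)
    obtain ⟨u, hu⟩ : ∃ u, u ∉ Submodule.span F {a, b} := by
      by_contra hc
      push Not at hc
      have htop : Submodule.span F {a, b} = ⊤ := eq_top_iff.mpr fun u _ => hc u
      have h1 := finrank_range_le_card (R := F) (![a, b])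
      rw [Matrix.range_cons, Matrix.range_cons, Matrix.range_empty, Set.union_empty] at h1
      simp only [Set.singleton_union, Fintype.card_fin] at h1
      rw [Set.finrank, htop, finrank_top, Module.finrank_fin_fun] at h1
      omega
    obtain ⟨ψ, hψu, hψ⟩ := exists_dual hu
    have hψa := hψ a (Submodule.subset_span (by simp))
    have hψb := hψ b (Submodule.subset_span (by simp))
    have hne : ψ ≠ 0 := fun h => by rw [h, zero_dotProduct] at hψu; exact zero_ne_one hψu
    have hab : a + b ≠ 0 := fun h => hba (by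
      rw [eq_neg_of_add_eq_zero_right h]
      exact Submodule.neg_mem _ (Submodule.mem_span_singleton_self a))
    refine (hFF _ hab x).resolve_right fun hfree => hne (hfree ψ (by rw [dotProduct_add, hψa, hψb, add_zero]) ?_)
    rw [← tv_add_left hψa hψb, mul_smul, hb ψ hψb, ha ψ hψa]
  let U : Ω → Submodule F (Fin n → F) := fun x =>
    { carrier := {v | Fixes v x}
      zero_mem' := hzero x
      add_mem' := fun {a b} ha hb => hadd x a b ha hb
      smul_mem' := fun c v hv => hscal x v c hv }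
  have hUg : ∀ (g : SpecialLinearGroup (Fin n) F) (x : Ω) (u : Fin n → F), u ∈ U x → g • u ∈ U (g • x) :=
    fun g x u hu => fixes_smul hu g
  intro v₀ hv₀ x₀ hx₀
  -- a nontrivial subspace is a hyperplane
  obtain ⟨v, hv⟩ : ∃ v, v ∉ U x₀ := by
    by_contra hc
    push Not at hc
    obtain ⟨y, z, hyz⟩ := exists_pair_ne Ω
    have htop : MulAction.stabilizer (SpecialLinearGroup (Fin n) F) x₀ = ⊤ :=
      eq_top_of_tv (by omega) _ fun a φ hφ => hc a φ hφ
    have key : ∀ w : Ω, w = x₀ := fun w => by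
      obtain ⟨g, hg⟩ := MulAction.exists_smul_eq (SpecialLinearGroup (Fin n) F) x₀ w
      have hgm : g ∈ MulAction.stabilizer (SpecialLinearGroup (Fin n) F) x₀ := htop ▸ Subgroup.mem_top g
      exact hg.symm.trans hgm
    exact hyz ((key y).trans (key z).symm)
  have hvne : v ≠ 0 := fun h => hv (h ▸ hzero x₀)
  have hU : U x₀ ⊔ Submodule.span F {v} = ⊤ := by
    by_contra hne
    obtain ⟨z, hz⟩ : ∃ z, z ∉ U x₀ ⊔ Submodule.span F {v} := by
      by_contra hc
      push Not at hc
      exact hne (eq_top_iff.mpr fun u _ => hc u)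
    have hy : v₀ ∈ U x₀ := hx₀
    have hy' : v₀ ∉ Submodule.span F {v, z} := by
      intro h
      obtain ⟨c, d, hcd⟩ := Submodule.mem_span_pair.mp h
      by_cases hd : d = 0
      · rw [hd, zero_smul, add_zero] at hcd
        have hc : c ≠ 0 := fun hc => hv₀ (by rw [← hcd, hc, zero_smul])
        apply hv
        rw [show v = c⁻¹ • v₀ by rw [← hcd, smul_smul, inv_mul_cancel₀ hc, one_smul]]
        exact (U x₀).smul_mem _ hy
      · apply hz
        rw [show z = d⁻¹ • v₀ - (d⁻¹ * c) • v by rw [← hcd, smul_add, smul_smul, smul_smul, inv_mul_cancel₀ hd, one_smul]; abel]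
        exact Submodule.sub_mem _ (Submodule.mem_sup_left ((U x₀).smul_mem _ hy))
          (Submodule.mem_sup_right (Submodule.smul_mem _ _ (Submodule.mem_span_singleton_self v)))
    obtain ⟨ψ, hψy, hψ⟩ := exists_dual hy'
    have hψv := hψ v (Submodule.subset_span (by simp))
    have hψz := hψ z (Submodule.subset_span (by simp))
    set g := tv z ψ with hg
    have hgv : g • v = v := by rw [hg, tv_smul hψz, hψv, zero_smul, add_zero]
    have hnx : ¬ Fixes v (g • x₀) := fun h => hv (by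
      have := fixes_smul h g⁻¹
      rwa [inv_smul_smul, inv_smul_eq_iff.mpr hgv.symm] at this)
    obtain ⟨χ, hχ, hχx⟩ := htr v hvne x₀ (g • x₀) hv hnx
    have h1 := hUg g x₀ v₀ hy
    rw [← hχx] at h1
    have h2 := hUg (tv v χ)⁻¹ _ _ h1
    rw [inv_smul_smul, hg, tv_smul hψz, hψy, one_smul, tv_inv hχ,
      tv_smul (by rw [neg_dotProduct, hχ, neg_zero])] at h2
    apply hz
    rw [show z = (v₀ + z + (-χ ⬝ᵥ (v₀ + z)) • v) - v₀ - (-χ ⬝ᵥ (v₀ + z)) • v by abel]
    exact Submodule.sub_mem _ (Submodule.sub_mem _ (Submodule.mem_sup_left h2) (Submodule.mem_sup_left hy))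
      (Submodule.mem_sup_right (Submodule.smul_mem _ _ (Submodule.mem_span_singleton_self v)))
  obtain ⟨ψ₀, hψ₀v, hψ₀⟩ := exists_dual hv
  have hψ₀ne : ψ₀ ≠ 0 := fun h => by rw [h, zero_dotProduct] at hψ₀v; exact zero_ne_one hψ₀v
  have hker : ∀ u, ψ₀ ⬝ᵥ u = 0 → u ∈ U x₀ := by
    intro u hu
    obtain ⟨a, ha, b, hb, rfl⟩ := Submodule.mem_sup.mp (show u ∈ U x₀ ⊔ Submodule.span F {v} by rw [hU]; exact Submodule.mem_top)
    obtain ⟨c, rfl⟩ := Submodule.mem_span_singleton.mp hb
    rw [dotProduct_add, hψ₀ a ha, dotProduct_smul, hψ₀v, zero_add, smul_eq_mul, mul_one] at hu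
    rw [hu, zero_smul, add_zero]
    exact ha
  -- each functional vanishing at `v₀` gives a fixed point of the group of `v₀`
  have hlift : ∀ φ : {φ : Fin n → F // φ ⬝ᵥ v₀ = 0 ∧ φ ≠ 0},
      ∃ x : {x : Ω // Fixes v₀ x}, ∀ u, u ∈ U x.1 ↔ φ.1 ⬝ᵥ u = 0 := by
    intro φ
    obtain ⟨h, hh⟩ := SLn.exists_smul_eq (F := F) hψ₀ne φ.2.2
    set g := (Matrix.SpecialLinearGroup.transpose h)⁻¹ with hg
    have hpull : pull g ψ₀ = φ.1 := by
      rw [← hh, pull, hg, inv_inv, Matrix.SpecialLinearGroup.smul_def, smul_eq_mulVec]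
      exact Matrix.vecMul_transpose _ _
    have hiff : ∀ u, u ∈ U (g • x₀) ↔ φ.1 ⬝ᵥ u = 0 := by
      intro u
      constructor
      · intro hu
        have h1 := hUg g⁻¹ _ _ hu
        rw [inv_smul_smul] at h1
        rw [← hpull, pull_dot]
        exact hψ₀ _ h1
      · intro hu
        rw [← hpull, pull_dot] at hu
        have h1 := hUg g _ _ (hker _ hu)
        rwa [smul_inv_smul] at h1
    exact ⟨⟨g • x₀, (hiff v₀).mpr φ.2.1⟩, hiff⟩
  choose X hX using hlift
  have hcard : Nat.card {φ : Fin n → F // φ ⬝ᵥ v₀ = 0 ∧ φ ≠ 0} ≤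
      Nat.card {x : Ω // Fixes v₀ x} * (Fintype.card F - 1) := by
    have hne : ∀ φ : {φ : Fin n → F // φ ⬝ᵥ v₀ = 0 ∧ φ ≠ 0}, ∃ i, φ.1 i ≠ 0 := fun φ => Function.ne_iff.mp φ.2.2
    choose i hi using hne
    -- functionals with the same fixed point are proportional
    have key : ∀ a b, X a = X b → ∃ c : F, c ≠ 0 ∧ a.1 = c • b.1 := by
      intro a b hab
      obtain ⟨c, hc⟩ := eq_smul_of_ker (φ := a.1) (ψ := b.1) b.2.2 fun u hu => (hX a u).mp (hab ▸ (hX b u).mpr hu)
      exact ⟨c, fun h => a.2.2 (by rw [hc, h, zero_smul]), hc⟩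
    let rep : {x : Ω // Fixes v₀ x} → Fin n := fun x =>
      if h : ∃ φ, X φ = x then i h.choose else ⟨0, by omega⟩
    have hrep : ∀ φ : {φ : Fin n → F // φ ⬝ᵥ v₀ = 0 ∧ φ ≠ 0}, φ.1 (rep (X φ)) ≠ 0 := by
      intro φ
      have h : ∃ ψ, X ψ = X φ := ⟨φ, rfl⟩
      simp only [rep, dif_pos h]
      obtain ⟨c, hc, hcb⟩ := key _ _ h.choose_spec
      intro h0
      apply hi h.choose
      rw [hcb, Pi.smul_apply, h0, smul_zero]
    rw [show Fintype.card F - 1 = Nat.card {c : F // c ≠ 0} by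
      rw [Nat.card_eq_fintype_card, Fintype.card_subtype_compl, Fintype.card_subtype_eq], ← Nat.card_prod]
    refine Nat.card_le_card_of_injective
      (fun φ => (X φ, (⟨φ.1 (rep (X φ)), hrep φ⟩ : {c : F // c ≠ 0}))) ?_
    intro a b h
    simp only [Prod.mk.injEq, Subtype.mk.injEq] at h
    obtain ⟨h1, h2⟩ := h
    obtain ⟨c, -, hc⟩ := key a b h1
    rw [h1, hc, Pi.smul_apply, smul_eq_mul] at h2
    have hc1 : c = 1 := mul_right_cancel₀ (hrep b) (by rw [h2, one_mul])
    exact Subtype.ext (by rw [hc, hc1, one_smul])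
  have hP : Nat.card {φ : Fin n → F // φ ⬝ᵥ v₀ = 0 ∧ φ ≠ 0} + 1 = Fintype.card F ^ (n - 1) := by
    have h1 := card_perp hv₀
    have hq : 0 < Fintype.card F := Fintype.card_pos
    have h2 : Nat.card {φ : Fin n → F // φ ⬝ᵥ v₀ = 0} = Fintype.card F ^ (n - 1) := by
      refine Nat.eq_of_mul_eq_mul_right hq ?_
      rw [h1, ← pow_succ, Nat.sub_add_cancel (by omega : 1 ≤ n)]
    rw [← h2, Nat.card_eq_fintype_card, Nat.card_eq_fintype_card, Fintype.card_subtype, Fintype.card_subtype,
      ← Finset.filter_filter, Finset.filter_ne', Finset.card_erase_add_one]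
    exact Finset.mem_filter.mpr ⟨Finset.mem_univ _, zero_dotProduct v₀⟩
  have hcnt := hcount v₀ hv₀
  have hqn : Fintype.card F ^ n = Fintype.card F * Fintype.card F ^ (n - 1) := by
    rw [← pow_succ', Nat.sub_add_cancel (by omega : 1 ≤ n)]
  rw [← hcnt, hqn, add_mul] at hlt
  obtain ⟨s, hs⟩ : ∃ s, Fintype.card F = s + 1 := ⟨Fintype.card F - 1, by have := Fintype.card_pos (α := F); omega⟩
  rw [hs, Nat.add_sub_cancel] at hlt hcard
  rw [hs] at hP
  rw [← hP] at hlt
  rw [show (s + 1) * (Nat.card {φ : Fin n → F // φ ⬝ᵥ v₀ = 0 ∧ φ ≠ 0} + 1) - 1 =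
    Nat.card {φ : Fin n → F // φ ⬝ᵥ v₀ = 0 ∧ φ ≠ 0} + (Nat.card {φ : Fin n → F // φ ⬝ᵥ v₀ = 0 ∧ φ ≠ 0} + 1) * s by
      ring_nf; omega] at hlt
  omega

end CfsgLib.MinIndexSL
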