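import Mathlib
import Cfsg.Agent.SLn.Basic

/-!
Transvections `1 + v φ` of `SL_n`, orthogonal functionals, and the trace pairing over the prime field.
-/

set_option autoImplicit false
set_option linter.style.haveILetI false

namespace CfsgLib.MinIndexSL

open Matrix
open scoped Matrix

variable {n : ℕ} {F : Type*} [Field F]

/-- The transvection of a pair with `φ v = 0`. -/
def tvMk (v φ : Fin n → F) (h : φ ⬝ᵥ v = 0) : SpecialLinearGroup (Fin n) F :=
  ⟨1 + replicateCol Unit v * replicateRow Unit φ, by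
    rw [det_one_add_replicateCol_mul_replicateRow, h, add_zero]⟩

/-- `u ↦ u + (φ ⬝ u) v` as an element of `SL`, the identity if `φ v ≠ 0`. -/
def tv [DecidableEq F] (v φ : Fin n → F) : SpecialLinearGroup (Fin n) F :=
  if h : φ ⬝ᵥ v = 0 then tvMk v φ h else 1

variable [DecidableEq F]

theorem tv_smul {v φ : Fin n → F} (h : φ ⬝ᵥ v = 0) (u : Fin n → F) :
    tv v φ • u = u + (φ ⬝ᵥ u) • v := by
  rw [Matrix.SpecialLinearGroup.smul_def, smul_eq_mulVec, tv, dif_pos h]
  show (1 + replicateCol Unit v * replicateRow Unit φ) *ᵥ u = _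
  rw [add_mulVec, one_mulVec]
  congr 1
  funext i
  simp [mulVec, dotProduct, Matrix.mul_apply, mul_comm, mul_left_comm, Finset.mul_sum]

theorem tv_zero (v : Fin n → F) : tv v (0 : Fin n → F) = 1 :=
  SLn.ext_smul fun u => by rw [tv_smul (zero_dotProduct v), zero_dotProduct, zero_smul, add_zero, one_smul]

theorem tv_add {v φ ψ : Fin n → F} (hφ : φ ⬝ᵥ v = 0) (hψ : ψ ⬝ᵥ v = 0) :
    tv v φ * tv v ψ = tv v (φ + ψ) := by
  refine SLn.ext_smul fun u => ?_
  rw [mul_smul, tv_smul hψ, tv_smul hφ, tv_smul (by rw [add_dotProduct, hφ, hψ, add_zero]),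
    dotProduct_add, dotProduct_smul, hφ, add_dotProduct, smul_zero, add_zero, add_smul]
  abel

theorem tv_add_left {v w φ : Fin n → F} (hv : φ ⬝ᵥ v = 0) (hw : φ ⬝ᵥ w = 0) :
    tv v φ * tv w φ = tv (v + w) φ := by
  refine SLn.ext_smul fun u => ?_
  rw [mul_smul, tv_smul hw, tv_smul hv, tv_smul (by rw [dotProduct_add, hv, hw, add_zero]),
    dotProduct_add, dotProduct_smul, hw, smul_zero, add_zero, smul_add]
  abel

theorem tv_inv {v φ : Fin n → F} (h : φ ⬝ᵥ v = 0) : (tv v φ)⁻¹ = tv v (-φ) :=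
  inv_eq_of_mul_eq_one_right (by
    rw [tv_add h (by rw [neg_dotProduct, h, neg_zero]), add_neg_cancel, tv_zero])

theorem tv_smul_left {v φ : Fin n → F} (c : F) (h : φ ⬝ᵥ v = 0) : tv (c • v) φ = tv v (c • φ) :=
  SLn.ext_smul fun u => by
    rw [tv_smul (by rw [dotProduct_smul, h, smul_zero]), tv_smul (by rw [smul_dotProduct, h, smul_zero]),
      smul_dotProduct, smul_smul, smul_eq_mul, mul_comm]

/-- Push a functional forward: `pull g φ (g u) = φ u`. -/
def pull (g : SpecialLinearGroup (Fin n) F) (φ : Fin n → F) : Fin n → F :=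
  φ ᵥ* ((g⁻¹ : SpecialLinearGroup (Fin n) F) : Matrix (Fin n) (Fin n) F)

omit [DecidableEq F] in
theorem pull_dot (g : SpecialLinearGroup (Fin n) F) (φ u : Fin n → F) :
    pull g φ ⬝ᵥ u = φ ⬝ᵥ (g⁻¹ • u) := by
  rw [pull, ← dotProduct_mulVec, Matrix.SpecialLinearGroup.smul_def, smul_eq_mulVec]

omit [DecidableEq F] in
theorem pull_smul_dot (g : SpecialLinearGroup (Fin n) F) (φ u : Fin n → F) :
    pull g φ ⬝ᵥ (g • u) = φ ⬝ᵥ u := by
  rw [pull_dot, inv_smul_smul]

omit [DecidableEq F] in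
theorem ext_dot {φ ψ : Fin n → F} (h : ∀ u, φ ⬝ᵥ u = ψ ⬝ᵥ u) : φ = ψ := by
  funext i
  have := h (Pi.single i 1)
  simpa using this

omit [DecidableEq F] in
theorem pull_pull (g h : SpecialLinearGroup (Fin n) F) (φ : Fin n → F) :
    pull g (pull h φ) = pull (g * h) φ :=
  ext_dot fun u => by rw [pull_dot, pull_dot, pull_dot, _root_.mul_inv_rev, mul_smul]

omit [DecidableEq F] in
theorem pull_one (φ : Fin n → F) : pull 1 φ = φ :=
  ext_dot fun u => by rw [pull_dot, inv_one, one_smul]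

omit [DecidableEq F] in
theorem pull_add (g : SpecialLinearGroup (Fin n) F) (φ ψ : Fin n → F) :
    pull g (φ + ψ) = pull g φ + pull g ψ := add_vecMul _ _ _

theorem conj_tv {v φ : Fin n → F} (h : φ ⬝ᵥ v = 0) (g : SpecialLinearGroup (Fin n) F) :
    g * tv v φ * g⁻¹ = tv (g • v) (pull g φ) := by
  refine SLn.ext_smul fun u => ?_
  rw [mul_smul, mul_smul, tv_smul h, tv_smul (by rw [pull_smul_dot, h]), pull_dot, smul_add,
    smul_inv_smul]
  congr 1
  simp only [Matrix.SpecialLinearGroup.smul_def, smul_eq_mulVec, mulVec_smul]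

theorem pull_tv {a φ ψ : Fin n → F} (h : φ ⬝ᵥ a = 0) :
    pull (tv a φ) ψ = ψ - (ψ ⬝ᵥ a) • φ :=
  ext_dot fun u => by
    rw [pull_dot, tv_inv h, tv_smul (by rw [neg_dotProduct, h, neg_zero]), dotProduct_add,
      dotProduct_smul, neg_dotProduct, sub_dotProduct, smul_dotProduct, smul_eq_mul, smul_eq_mul]
    ring

omit [DecidableEq F] in
/-- A functional vanishing on a subspace and not at a given point outside it. -/
theorem exists_dual {p : Submodule F (Fin n → F)} {u : Fin n → F} (hu : u ∉ p) :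
    ∃ ψ : Fin n → F, ψ ⬝ᵥ u = 1 ∧ ∀ w ∈ p, ψ ⬝ᵥ w = 0 := by
  obtain ⟨f, hf, hp⟩ := Submodule.exists_dual_map_eq_bot_of_notMem hu inferInstance
  set ψ := (dotProductEquiv F (Fin n)).symm f
  have hψ : ∀ w, ψ ⬝ᵥ w = f w := fun w => by
    have := LinearMap.congr_fun ((dotProductEquiv F (Fin n)).apply_symm_apply f) w
    exact this
  refine ⟨(f u)⁻¹ • ψ, by rw [smul_dotProduct, hψ, smul_eq_mul, inv_mul_cancel₀ hf], fun w hw => ?_⟩
  have : f w = 0 := by
    have := Submodule.mem_map_of_mem (f := f) hw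
    rwa [hp, Submodule.mem_bot] at this
  rw [smul_dotProduct, hψ, this, smul_zero]

omit [DecidableEq F] in
/-- A functional with the same kernel is proportional. -/
theorem eq_smul_of_ker {φ ψ : Fin n → F} (hψ : ψ ≠ 0) (h : ∀ u, ψ ⬝ᵥ u = 0 → φ ⬝ᵥ u = 0) :
    ∃ c : F, φ = c • ψ := by
  obtain ⟨z, hz⟩ : ∃ z, ψ ⬝ᵥ z ≠ 0 := by
    by_contra hc
    push Not at hc
    exact hψ (ext_dot fun u => by rw [hc u, zero_dotProduct])
  refine ⟨(φ ⬝ᵥ z) / (ψ ⬝ᵥ z), ext_dot fun u => ?_⟩
  have h1 := h (u - ((ψ ⬝ᵥ u) / (ψ ⬝ᵥ z)) • z) (by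
    rw [dotProduct_sub, dotProduct_smul, smul_eq_mul, div_mul_cancel₀ _ hz, sub_self])
  rw [dotProduct_sub, dotProduct_smul, sub_eq_zero, smul_eq_mul] at h1
  rw [h1, smul_dotProduct, smul_eq_mul]
  field_simp

/-- Transvections generate. -/
theorem eq_top_of_tv (hn : 2 ≤ n) (S : Subgroup (SpecialLinearGroup (Fin n) F))
    (h : ∀ v φ : Fin n → F, φ ⬝ᵥ v = 0 → tv v φ ∈ S) : S = ⊤ := by
  haveI : Nontrivial (Fin n) := ⟨⟨⟨0, by omega⟩, ⟨1, by omega⟩, by simp⟩⟩
  refine SLn.eq_top_of_transvection S fun i j hij c => ?_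
  have hd : (Pi.single j c : Fin n → F) ⬝ᵥ Pi.single i 1 = 0 := by
    rw [dotProduct_single, mul_one, Pi.single_eq_of_ne hij]
  have : SpecialLinearGroup.transvection hij c = tv (Pi.single i 1) (Pi.single j c) := by
    refine SLn.ext_smul fun u => funext fun k => ?_
    rw [SLn.transvection_smul_apply, tv_smul hd, single_dotProduct]
    simp only [Pi.add_apply, Pi.smul_apply, Pi.single_apply, smul_eq_mul]
    split <;> simp
  rw [this]
  exact h _ _ hd

section Pairing

variable (p : ℕ) [Fact p.Prime] [Algebra (ZMod p) F]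

/-- Trace of the dot product, as a bilinear map over the prime field. -/
noncomputable def pairing : (Fin n → F) →ₗ[ZMod p] Module.Dual (ZMod p) (Fin n → F) :=
  LinearMap.mk₂ (ZMod p) (fun w φ => Algebra.trace (ZMod p) F (φ ⬝ᵥ w))
    (fun a b φ => by rw [dotProduct_add, map_add])
    (fun c a φ => by rw [dotProduct_smul, map_smul])
    (fun w a b => by rw [add_dotProduct, map_add])
    (fun c w a => by rw [smul_dotProduct, map_smul])

omit [DecidableEq F] in
theorem pairing_apply (w φ : Fin n → F) :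
    pairing p w φ = Algebra.trace (ZMod p) F (φ ⬝ᵥ w) := rfl

variable [Fintype F]

omit [DecidableEq F] in
theorem pairing_bijective : Function.Bijective (pairing (n := n) (F := F) p) := by
  have hinj : Function.Injective (pairing (n := n) (F := F) p) := by
    rw [← LinearMap.ker_eq_bot, eq_bot_iff]
    intro w hw
    rw [Submodule.mem_bot]
    funext i
    by_contra hi
    obtain ⟨a, ha⟩ := Algebra.trace_surjective (ZMod p) F 1
    have h1 := LinearMap.congr_fun (LinearMap.mem_ker.mp hw) (Pi.single i (a / w i))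
    rw [pairing_apply, single_dotProduct, div_mul_cancel₀ _ hi, ha] at h1
    exact one_ne_zero h1
  exact ⟨hinj, (LinearMap.injective_iff_surjective_of_finrank_eq_finrank
    Subspace.dual_finrank_eq.symm).mp hinj⟩

/-- The annihilator for the trace pairing. -/
noncomputable def ann (R : Submodule (ZMod p) (Fin n → F)) : Submodule (ZMod p) (Fin n → F) :=
  R.dualAnnihilator.comap (pairing p)

omit [DecidableEq F] [Fintype F] in
theorem mem_ann {R : Submodule (ZMod p) (Fin n → F)} {w : Fin n → F} :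
    w ∈ ann p R ↔ ∀ φ ∈ R, Algebra.trace (ZMod p) F (φ ⬝ᵥ w) = 0 := by
  simp [ann, Submodule.mem_dualAnnihilator, pairing_apply]

omit [DecidableEq F] in
theorem card_ann_mul (R : Submodule (ZMod p) (Fin n → F)) :
    Nat.card (ann p R) * Nat.card R = Fintype.card F ^ n := by
  have h1 : Nat.card (ann p R) = Nat.card R.dualAnnihilator :=
    Nat.card_congr (Equiv.subtypeEquiv (Equiv.ofBijective _ (pairing_bijective p)) fun w => Iff.rfl)
  have hV : Nat.card (Fin n → F) = Fintype.card F ^ n := by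
    rw [Nat.card_eq_fintype_card, Fintype.card_fun, Fintype.card_fin]
  rw [h1, ← hV, Module.natCard_eq_pow_finrank (K := ZMod p) (V := R.dualAnnihilator),
    Module.natCard_eq_pow_finrank (K := ZMod p) (V := R),
    Module.natCard_eq_pow_finrank (K := ZMod p) (V := Fin n → F), ← pow_add, add_comm,
    Subspace.finrank_add_finrank_dualAnnihilator_eq]

omit [DecidableEq F] in
/-- Double annihilator. -/
theorem mem_of_ann {R : Submodule (ZMod p) (Fin n → F)} {φ : Fin n → F}
    (h : ∀ w ∈ ann p R, Algebra.trace (ZMod p) F (φ ⬝ᵥ w) = 0) : φ ∈ R := by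
  by_contra hφ
  obtain ⟨f, hf, hR⟩ := Submodule.exists_dual_map_eq_bot_of_notMem hφ inferInstance
  obtain ⟨w, rfl⟩ := (pairing_bijective p).2 f
  refine hf ?_
  rw [pairing_apply]
  refine h w ((mem_ann p).mpr fun ψ hψ => ?_)
  have := Submodule.mem_map_of_mem (f := pairing p w) hψ
  rwa [hR, Submodule.mem_bot, pairing_apply] at this

end Pairing

end CfsgLib.MinIndexSL
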